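import Cfsg.Prelude
import Cfsg.Agent.Lib.Helper30.Coprime

set_option autoImplicit false

namespace Cfsg.Agent.Lib.Helper41

open Subgroup Cfsg
open Cfsg.Agent.Lib.Helper30 (cj)
open scoped IsMulCommutative

variable {G : Type*} [Group G]

theorem coe_nsmul' (V : Subgroup G) (n : ↥(normalizer (V : Set G))) (v : V) :
    ((n • v : V) : G) = n * v * (n : G)⁻¹ := rfl

/-- independence of the fixed points of distinct maximal subgroups of an abelian group. -/
theorem indep_fix {ι : Type*} (V B : Subgroup G) [IsMulCommutative V] (hBc : IsMulCommutative B)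
    (hBV : B ≤ normalizer (V : Set G)) (hfix : V ⊓ centralizer (B : Set G) = ⊥)
    (X : ι → Subgroup G) (s : Finset ι) :
    Set.InjOn X s → (∀ i ∈ s, X i < B) →
    (∀ i ∈ s, ∀ Y : Subgroup G, X i < Y → Y ≤ B → Y = B) →
    ∀ v : ι → V, (∀ i ∈ s, (v i : G) ∈ centralizer (X i : Set G)) → ∏ i ∈ s, v i = 1 →
      ∀ i ∈ s, v i = 1 := by
  classical
  induction s using Finset.induction_on with
  | empty => intro _ _ _ _ _ _ i hi; simp at hi
  | insert i0 s' hi0 ih =>
    intro hinj hlt hmax v hv hprod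
    have hinj' : Set.InjOn X s' := hinj.mono (by simp)
    have hlt' : ∀ i ∈ s', X i < B := fun i hi => hlt i (Finset.mem_insert_of_mem hi)
    have hmax' : ∀ i ∈ s', ∀ Y : Subgroup G, X i < Y → Y ≤ B → Y = B :=
      fun i hi => hmax i (Finset.mem_insert_of_mem hi)
    rw [Finset.prod_insert hi0] at hprod
    have hP : ∏ i ∈ s', v i = (v i0)⁻¹ := eq_inv_of_mul_eq_one_right hprod
    have key : ∀ u ∈ X i0, ∀ i ∈ s', u * (v i : G) = (v i : G) * u := by
      intro u hu
      have huB : u ∈ B := (hlt i0 (Finset.mem_insert_self _ _)).le hu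
      let n : ↥(normalizer (V : Set G)) := ⟨u, hBV huB⟩
      have h1 := ih hinj' hlt' hmax' (fun i => n • v i * (v i)⁻¹) (by
        intro i hi
        rw [mem_centralizer_iff]
        intro x hx
        have hxv : x * (v i : G) = (v i : G) * x :=
          (mem_centralizer_iff.mp (hv i (Finset.mem_insert_of_mem hi))) x hx
        have hxB : x ∈ B := (hlt' i hi).le hx
        have hxu : x * u = u * x := congrArg Subtype.val (hBc.is_comm.comm ⟨x, hxB⟩ ⟨u, huB⟩)
        have hxv' : x * (v i : G)⁻¹ = (v i : G)⁻¹ * x := by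
          rw [eq_inv_mul_iff_mul_eq, ← mul_assoc, ← hxv, mul_assoc, mul_inv_cancel, mul_one]
        have hxu' : x * u⁻¹ = u⁻¹ * x := by
          rw [eq_inv_mul_iff_mul_eq, ← mul_assoc, ← hxu, mul_assoc, mul_inv_cancel, mul_one]
        change x * (u * (v i : G) * u⁻¹ * (v i : G)⁻¹) = u * (v i : G) * u⁻¹ * (v i : G)⁻¹ * x
        calc x * (u * (v i : G) * u⁻¹ * (v i : G)⁻¹)
            = (x * u) * (v i : G) * u⁻¹ * (v i : G)⁻¹ := by group
          _ = u * (x * (v i : G)) * u⁻¹ * (v i : G)⁻¹ := by rw [hxu]; group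
          _ = u * (v i : G) * (x * u⁻¹) * (v i : G)⁻¹ := by rw [hxv]; group
          _ = u * (v i : G) * u⁻¹ * (x * (v i : G)⁻¹) := by rw [hxu']; group
          _ = u * (v i : G) * u⁻¹ * (v i : G)⁻¹ * x := by rw [hxv']; group) (by
        rw [Finset.prod_mul_distrib, Finset.prod_inv_distrib, ← Finset.smul_prod', hP]
        have : n • (v i0)⁻¹ = (v i0)⁻¹ := by
          apply Subtype.ext
          have hc : u * (v i0 : G) = (v i0 : G) * u :=
            (mem_centralizer_iff.mp (hv i0 (Finset.mem_insert_self _ _))) u hu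
          change u * (v i0 : G)⁻¹ * u⁻¹ = (v i0 : G)⁻¹
          have hc' : Commute u (v i0 : G)⁻¹ := (show Commute u (v i0 : G) from hc).inv_right
          rw [mul_inv_eq_iff_eq_mul]
          exact hc'
        rw [this]
        simp)
      intro i hi
      have h2 := h1 i hi
      have h3 : n • v i = v i := mul_inv_eq_one.mp h2
      have h4 : u * (v i : G) * u⁻¹ = (v i : G) := congrArg Subtype.val h3
      exact mul_inv_eq_iff_eq_mul.mp h4
    have hall : ∀ i ∈ s', v i = 1 := by
      intro i hi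
      have hne : ¬ X i0 ≤ X i := by
        intro hle
        rcases hle.eq_or_lt with heq | hlt2
        · have := hinj (Finset.mem_insert_self _ _) (Finset.mem_insert_of_mem hi) heq
          exact hi0 (this ▸ hi)
        · exact (hlt' i hi).ne (hmax i0 (Finset.mem_insert_self _ _) _ hlt2 (hlt' i hi).le)
      have hsup : X i ⊔ X i0 = B := by
        apply hmax' i hi
        · exact lt_of_le_of_ne le_sup_left (fun h => hne (h ▸ le_sup_right))
        · exact sup_le (hlt' i hi).le (hlt i0 (Finset.mem_insert_self _ _)).le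
      have hle : X i ⊔ X i0 ≤ centralizer {(v i : G)} := by
        apply sup_le
        · intro x hx
          rw [mem_centralizer_singleton_iff]
          exact (mem_centralizer_iff.mp (hv i (Finset.mem_insert_of_mem hi))) x hx
        · intro x hx
          rw [mem_centralizer_singleton_iff]
          exact key x hx i hi
      have hmem : (v i : G) ∈ V ⊓ centralizer (B : Set G) := by
        refine Subgroup.mem_inf.mpr ⟨(v i).2, ?_⟩
        rw [mem_centralizer_iff]
        intro b hb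
        have := hle (hsup ▸ hb : b ∈ X i ⊔ X i0)
        rw [mem_centralizer_singleton_iff] at this
        exact this
      rw [hfix, mem_bot] at hmem
      exact Subtype.ext hmem
    intro i hi
    rcases Finset.mem_insert.mp hi with rfl | hi'
    · rw [Finset.prod_eq_one hall, mul_one] at hprod
      exact hprod
    · exact hall i hi'

theorem cj_max {B B₁ : Subgroup G} {g : G} (hg : g ∈ normalizer (B : Set G)) (h₁ : B₁ < B)
    (hmax₁ : ∀ X : Subgroup G, B₁ < X → X ≤ B → X = B) :
    cj g B₁ < B ∧ ∀ X : Subgroup G, cj g B₁ < X → X ≤ B → X = B := by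
  have hB : cj g B = B := Cfsg.Agent.Lib.Helper30.cj_eq_of_mem_normalizer hg
  have hB' : cj g⁻¹ B = B := Cfsg.Agent.Lib.Helper30.cj_eq_of_mem_normalizer (inv_mem hg)
  have hmono : ∀ {h : G} {X Y : Subgroup G}, X < Y → cj h X < cj h Y := by
    intro h X Y hXY
    refine lt_of_le_of_ne (Cfsg.Agent.Lib.Helper30.cj_mono h hXY.le) ?_
    intro heq
    have := congrArg (cj h⁻¹) heq
    rw [Cfsg.Agent.Lib.Helper30.cj_inv_cj, Cfsg.Agent.Lib.Helper30.cj_inv_cj] at this
    exact hXY.ne this
  constructor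
  · have := hmono (h := g) h₁
    rwa [hB] at this
  · intro X hX hXB
    have h2 : B₁ < cj g⁻¹ X := by
      have := hmono (h := g⁻¹) hX
      rwa [Cfsg.Agent.Lib.Helper30.cj_inv_cj] at this
    have h3 : cj g⁻¹ X ≤ B := by
      have := Cfsg.Agent.Lib.Helper30.cj_mono g⁻¹ hXB
      rwa [hB'] at this
    have h4 := hmax₁ _ h2 h3
    have := congrArg (cj g) h4
    rwa [Cfsg.Agent.Lib.Helper30.cj_cj_inv, hB] at this

variable [Finite G]

theorem card_pi_fix_le {J : Type*} [Fintype J] (V B : Subgroup G) (a : G) {r : ℕ} (hr : r.Prime)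
    (har : orderOf a = r) (hVc : IsMulCommutative V) (hBc : IsMulCommutative B)
    (hBV : B ≤ normalizer (V : Set G)) (hfix : V ⊓ centralizer (B : Set G) = ⊥)
    (haV : a ∈ normalizer (V : Set G)) (haB : a ∈ normalizer (B : Set G))
    (Bs : J → Subgroup G) (hlt : ∀ j, Bs j < B)
    (hmax : ∀ j, ∀ X : Subgroup G, Bs j < X → X ≤ B → X = B)
    (hm : ∀ j, cj a (Bs j) ≠ Bs j)
    (hne : ∀ j j', j ≠ j' → ∀ g ∈ zpowers a, cj g (Bs j) ≠ Bs j') :
    ∏ j, Nat.card ↥(V ⊓ centralizer (Bs j : Set G)) ≤ Nat.card ↥(V ⊓ centralizer ({a} : Set G)) := by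
  classical
  have hfact : Fact r.Prime := ⟨hr⟩
  let R : Subgroup G := zpowers a
  have hRV : R ≤ normalizer (V : Set G) := (zpowers_le).mpr haV
  have hRB : R ≤ normalizer (B : Set G) := (zpowers_le).mpr haB
  have hRcard : Nat.card R = r := by rw [Nat.card_zpowers, har]
  letI : Fintype R := Fintype.ofFinite R
  let nn : R → ↥(normalizer (V : Set G)) := fun g => ⟨g, hRV g.2⟩
  -- the norm map
  let P : (∀ j, ↥(V ⊓ centralizer (Bs j : Set G))) → V :=
    fun w => ∏ j, ∏ g : R, nn g • (⟨(w j : G), (w j).2.1⟩ : V)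
  have hPa : ∀ w, (P w : G) ∈ V ⊓ centralizer ({a} : Set G) := by
    intro w
    refine Subgroup.mem_inf.mpr ⟨(P w).2, ?_⟩
    rw [mem_centralizer_singleton_iff]
    let a' : R := ⟨a, mem_zpowers a⟩
    have h1 : nn a' • P w = P w := by
      change nn a' • (∏ j, ∏ g : R, nn g • (⟨(w j : G), (w j).2.1⟩ : V)) = _
      rw [Finset.smul_prod']
      apply Finset.prod_congr rfl
      intro j _
      rw [Finset.smul_prod']
      refine Fintype.prod_equiv (Equiv.mulLeft a') _ _ ?_
      intro g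
      rw [smul_smul]
      rfl
    have h2 : a * (P w : G) * a⁻¹ = (P w : G) := congrArg Subtype.val h1
    exact (mul_inv_eq_iff_eq_mul.mp h2).symm
  rw [← Nat.card_pi]
  apply Nat.card_le_card_of_injective (fun w => (⟨(P w : G), hPa w⟩ : ↥(V ⊓ centralizer ({a} : Set G))))
  intro w w' hww
  have hPP : P w = P w' := Subtype.ext (congrArg
    (fun z : ↥(V ⊓ centralizer ({a} : Set G)) => (z : G)) hww)
  -- apply independence
  let X : J × R → Subgroup G := fun x => cj (x.2 : G) (Bs x.1)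
  let v : J × R → V := fun x =>
    nn x.2 • ((⟨(w x.1 : G), (w x.1).2.1⟩ : V) * (⟨(w' x.1 : G), (w' x.1).2.1⟩ : V)⁻¹)
  have hinj : Set.InjOn X (Finset.univ : Finset (J × R)) := by
    rintro ⟨j, g⟩ _ ⟨j', g'⟩ _ hX
    have hX' : cj (g : G) (Bs j) = cj (g' : G) (Bs j') := hX
    have h1 : cj ((g' : G)⁻¹ * g) (Bs j) = Bs j' := by
      rw [Cfsg.Agent.Lib.Helper30.cj_mul, hX', Cfsg.Agent.Lib.Helper30.cj_inv_cj]
    have hmem : (g' : G)⁻¹ * g ∈ zpowers a := mul_mem (inv_mem g'.2) g.2
    have hj : j = j' := by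
      by_contra hjj
      exact hne j j' hjj _ hmem h1
    subst hj
    have hg : g'⁻¹ * g = 1 := by
      by_contra hne1
      have h2 : (⟨a, mem_zpowers a⟩ : R) ∈ zpowers (g'⁻¹ * g) :=
        mem_zpowers_of_prime_card hRcard hne1
      have h3 : (g' : G)⁻¹ * g ∈ normalizer (Bs j : Set G) :=
        Cfsg.Agent.Lib.Helper30.mem_normalizer_of_cj_eq h1
      obtain ⟨k, hk⟩ := mem_zpowers_iff.mp h2
      have h4 : ((g' : G)⁻¹ * g) ^ k = a := congrArg Subtype.val hk
      have h5 : a ∈ normalizer (Bs j : Set G) := h4 ▸ zpow_mem h3 k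
      exact hm j (Cfsg.Agent.Lib.Helper30.cj_eq_of_mem_normalizer h5)
    have : g = g' := by
      have := inv_mul_eq_one.mp hg
      exact this.symm
    rw [this]
  have hXmax := fun x : J × R => cj_max (hRB x.2.2) (hlt x.1) (hmax x.1)
  have hv : ∀ x ∈ (Finset.univ : Finset (J × R)), (v x : G) ∈ centralizer (X x : Set G) := by
    rintro ⟨j, g⟩ _
    rw [mem_centralizer_iff]
    intro y hy
    rw [SetLike.mem_coe, Cfsg.Agent.Lib.Helper30.mem_cj] at hy
    have c1 := (mem_centralizer_iff.mp (w j).2.2) _ hy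
    have c2 := (mem_centralizer_iff.mp (w' j).2.2) _ hy
    have c3 : Commute ((g : G)⁻¹ * y * g) ((w j : G) * (w' j : G)⁻¹) :=
      (show Commute _ (w j : G) from c1).mul_right (show Commute _ (w' j : G) from c2).inv_right
    change y * ((g : G) * ((w j : G) * (w' j : G)⁻¹) * (g : G)⁻¹)
      = ((g : G) * ((w j : G) * (w' j : G)⁻¹) * (g : G)⁻¹) * y
    have c4 := c3.eq
    calc y * ((g : G) * ((w j : G) * (w' j : G)⁻¹) * (g : G)⁻¹)
        = (g : G) * (((g : G)⁻¹ * y * g) * ((w j : G) * (w' j : G)⁻¹)) * (g : G)⁻¹ := by group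
      _ = (g : G) * (((w j : G) * (w' j : G)⁻¹) * ((g : G)⁻¹ * y * g)) * (g : G)⁻¹ := by rw [c4]
      _ = ((g : G) * ((w j : G) * (w' j : G)⁻¹) * (g : G)⁻¹) * y := by group
  have hprod : ∏ x ∈ (Finset.univ : Finset (J × R)), v x = 1 := by
    rw [← Finset.univ_product_univ, Finset.prod_product]
    have : ∀ j, ∏ g : R, v (j, g)
        = (∏ g : R, nn g • (⟨(w j : G), (w j).2.1⟩ : V)) *
          (∏ g : R, nn g • (⟨(w' j : G), (w' j).2.1⟩ : V))⁻¹ := by
      intro j
      rw [← Finset.prod_inv_distrib, ← Finset.prod_mul_distrib]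
      apply Finset.prod_congr rfl
      intro g _
      change nn g • (_ * _⁻¹) = _
      rw [smul_mul', smul_inv']
    simp only [this]
    rw [Finset.prod_mul_distrib, Finset.prod_inv_distrib]
    change P w * (P w')⁻¹ = 1
    rw [hPP, mul_inv_cancel]
  have hall := indep_fix V B hBc hBV hfix X Finset.univ hinj (fun x _ => (hXmax x).1)
    (fun x _ => (hXmax x).2) v hv hprod
  funext j
  have h1 := hall (j, 1) (Finset.mem_univ _)
  have h2 : ((v (j, 1) : V) : G) = 1 := congrArg Subtype.val h1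
  have h3 : ((v (j, 1) : V) : G) = (1 : G) * ((w j : G) * (w' j : G)⁻¹) * (1 : G)⁻¹ := rfl
  rw [h3] at h2
  apply Subtype.ext
  have : (w j : G) * (w' j : G)⁻¹ = 1 := by simpa using h2
  exact mul_inv_eq_one.mp this

theorem card_fix_le (V B B₁ : Subgroup G) (a : G) {r : ℕ} (hr : r.Prime) (har : orderOf a = r)
    (hVc : IsMulCommutative V) (hBc : IsMulCommutative B) (hBV : B ≤ normalizer (V : Set G))
    (hfix : V ⊓ centralizer (B : Set G) = ⊥) (haV : a ∈ normalizer (V : Set G))
    (haB : a ∈ normalizer (B : Set G)) (h₁ : B₁ < B)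
    (hmax₁ : ∀ X : Subgroup G, B₁ < X → X ≤ B → X = B) (hm₁ : cj a B₁ ≠ B₁) :
    Nat.card ↥(V ⊓ centralizer (B₁ : Set G)) ≤ Nat.card ↥(V ⊓ centralizer ({a} : Set G)) := by
  have := card_pi_fix_le (J := Unit) V B a hr har hVc hBc hBV hfix haV haB (fun _ => B₁)
    (fun _ => h₁) (fun _ => hmax₁) (fun _ => hm₁) (fun j j' h => absurd rfl h)
  simpa using this

theorem card_fix_mul_le (V B : Subgroup G) (a : G) {r : ℕ} (hr : r.Prime) (har : orderOf a = r)
    (hVc : IsMulCommutative V) (hBc : IsMulCommutative B) (hBV : B ≤ normalizer (V : Set G))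
    (hfix : V ⊓ centralizer (B : Set G) = ⊥) (haV : a ∈ normalizer (V : Set G))
    (haB : a ∈ normalizer (B : Set G)) (B₁ B₂ : Subgroup G) (h₁ : B₁ < B)
    (hmax₁ : ∀ X : Subgroup G, B₁ < X → X ≤ B → X = B) (h₂ : B₂ < B)
    (hmax₂ : ∀ X : Subgroup G, B₂ < X → X ≤ B → X = B) (hm₁ : cj a B₁ ≠ B₁) (hm₂ : cj a B₂ ≠ B₂)
    (hne : ∀ i : ℕ, cj (a ^ i) B₁ ≠ B₂) :
    Nat.card ↥(V ⊓ centralizer (B₁ : Set G)) * Nat.card ↥(V ⊓ centralizer (B₂ : Set G)) ≤
      Nat.card ↥(V ⊓ centralizer ({a} : Set G)) := by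
  have hne' : ∀ g ∈ zpowers a, cj g B₁ ≠ B₂ := by
    intro g hg
    rw [← mem_powers_iff_mem_zpowers] at hg
    obtain ⟨i, rfl⟩ := hg
    exact hne i
  have := card_pi_fix_le (J := Bool) V B a hr har hVc hBc hBV hfix haV haB
    (fun b => if b then B₁ else B₂)
    (by intro b; cases b <;> simp [h₁, h₂])
    (by intro b; cases b <;> simpa using (by assumption))
    (by intro b; cases b <;> simpa using (by assumption))
    (by
      intro j j' hjj g hg
      cases j <;> cases j' <;> simp at hjj ⊢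
      · intro h
        apply hne' g⁻¹ (inv_mem hg)
        rw [← h, Cfsg.Agent.Lib.Helper30.cj_inv_cj]
      · exact hne' g hg)
  simpa [Fintype.prod_bool] using this

end Cfsg.Agent.Lib.Helper41
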