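import Cfsg.Prelude
import Cfsg.Agent.Lib.Helper30.Coprime
import Cfsg.Agent.Lib.Helper1.Fpf2

set_option autoImplicit false
set_option linter.unusedVariables false

namespace Cfsg.Agent.Lib.Helper41

open Subgroup Cfsg
open Cfsg.Agent.Lib.Helper30 (cj)

variable {G : Type*} [Group G] [Finite G]

theorem exists_hyperplane (V B : Subgroup G) {q : ℕ} (hq : q.Prime) (hVc : IsMulCommutative V)
    (hV1 : V ≠ ⊥) (hB : IsElementaryAbelian q B) (hcop : (Nat.card V).Coprime q)
    (hBV : B ≤ normalizer (V : Set G)) (hfix : V ⊓ centralizer (B : Set G) = ⊥) :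
    ∃ B₀ : Subgroup G, B₀ < B ∧ (∀ X : Subgroup G, B₀ < X → X ≤ B → X = B) ∧
      V ⊓ centralizer (B₀ : Set G) ≠ ⊥ := by
  classical
  have hBc : IsMulCommutative B := hB.1
  -- a maximal subgroup with nontrivial fixed points
  obtain ⟨B₀, hB₀⟩ := (Set.toFinite {Y : Subgroup G | Y ≤ B ∧
    V ⊓ centralizer (Y : Set G) ≠ ⊥}).exists_maximal ⟨⊥, bot_le, by
      rw [coe_bot, centralizer_eq_top_iff_subset.mpr (by simp), inf_top_eq]
      exact hV1⟩
  have hle : B₀ ≤ B := hB₀.prop.1
  have hU1 : V ⊓ centralizer (B₀ : Set G) ≠ ⊥ := hB₀.prop.2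
  have hmaxB : ∀ Y : Subgroup G, B₀ < Y → Y ≤ B → V ⊓ centralizer (Y : Set G) = ⊥ := by
    intro Y hY hYB
    by_contra hne
    exact hY.not_ge (hB₀.le_of_ge ⟨hYB, hne⟩ hY.le)
  have hlt : B₀ < B := lt_of_le_of_ne hle (by
    rintro rfl
    exact hU1 hfix)
  refine ⟨B₀, hlt, ?_, hU1⟩
  set U : Subgroup G := V ⊓ centralizer (B₀ : Set G) with hU
  have hUc : IsMulCommutative U :=
    ⟨⟨fun a b => Subtype.ext (congrArg (fun z : V => (z : G))
      (hVc.is_comm.comm ⟨a, a.2.1⟩ ⟨b, b.2.1⟩))⟩⟩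
  letI : CommGroup U := { (inferInstance : Group U) with mul_comm := hUc.is_comm.comm }
  haveI : Nontrivial U := (Subgroup.nontrivial_iff_ne_bot U).mpr hU1
  have hBcent : B ≤ centralizer (B₀ : Set G) := by
    intro b hb
    rw [mem_centralizer_iff]
    intro x hx
    exact congrArg Subtype.val (hBc.is_comm.comm ⟨x, hle hx⟩ ⟨b, hb⟩)
  have hBU : B ≤ normalizer (U : Set G) :=
    Cfsg.Agent.Lib.Helper30.le_normalizer_inf hBV (hBcent.trans le_normalizer)
  let ρ : B →* MulAut U := U.normalizerMonoidHom.comp (inclusion hBU)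
  have hρ : ∀ (b : B) (u : U), ((ρ b u : U) : G) = b * u * (b : G)⁻¹ := fun _ _ => rfl
  let K : Subgroup B := B₀.subgroupOf B
  have hK : ∀ b ∈ K, ρ b = 1 := by
    intro b hb
    ext u
    rw [hρ, MulAut.one_apply]
    have := (mem_centralizer_iff.mp u.2.2) b hb
    rw [this]; group
  let ρ' : B ⧸ K →* MulAut U := QuotientGroup.lift K ρ hK
  have hcyc : IsCyclic (B ⧸ K) := by
    apply Cfsg.Agent.Lib.Helper1.fpf_isCyclic_of_comm ρ'
    · intro a
      induction a using QuotientGroup.induction_on with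
      | H b =>
        intro hne u hu
        have hb : (b : G) ∉ B₀ := by
          intro hb
          apply hne
          exact (QuotientGroup.eq_one_iff b).mpr hb
        have hu' : ρ b u = u := hu
        have h1 : (b : G) * u * (b : G)⁻¹ = u := by rw [← hρ, hu']
        have h2 : (u : G) ∈ V ⊓ centralizer ((B₀ ⊔ zpowers (b : G) : Subgroup G) : Set G) := by
          refine Subgroup.mem_inf.mpr ⟨u.2.1, ?_⟩
          have h3 : B₀ ⊔ zpowers (b : G) ≤ centralizer {(u : G)} := by
            apply sup_le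
            · intro x hx
              rw [mem_centralizer_singleton_iff]
              exact (mem_centralizer_iff.mp u.2.2) x hx
            · rw [zpowers_le, mem_centralizer_singleton_iff]
              exact mul_inv_eq_iff_eq_mul.mp h1
          rw [mem_centralizer_iff]
          intro x hx
          have := h3 hx
          rwa [mem_centralizer_singleton_iff] at this
        rw [hmaxB _ (lt_of_le_of_ne le_sup_left (fun h => hb (h ▸
          (le_sup_right : zpowers (b : G) ≤ B₀ ⊔ zpowers (b : G)) (mem_zpowers _))))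
          (sup_le hle (zpowers_le.mpr b.2)), mem_bot] at h2
        exact Subtype.ext h2
    · intro a b
      induction a using QuotientGroup.induction_on with
      | H a =>
        induction b using QuotientGroup.induction_on with
        | H b =>
          rw [← QuotientGroup.mk_mul, ← QuotientGroup.mk_mul, hBc.is_comm.comm a b]
  intro X hX hXB
  obtain ⟨x, hxX, hxB₀⟩ := SetLike.exists_of_lt hX
  obtain ⟨g, hg⟩ := hcyc
  have hgq : g ^ q = 1 := by
    induction g using QuotientGroup.induction_on with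
    | H b =>
      rw [← QuotientGroup.mk_pow]
      have : b ^ q = 1 := Subtype.ext (hB.2 b b.2)
      rw [this, QuotientGroup.mk_one]
  let x' : B := ⟨x, hXB hxX⟩
  obtain ⟨i, hi⟩ := mem_zpowers_iff.mp (hg (x' : B ⧸ K))
  have hx1 : (x' : B ⧸ K) ≠ 1 := by
    intro h
    exact hxB₀ ((QuotientGroup.eq_one_iff x').mp h)
  have hcop2 : IsCoprime i (q : ℤ) := by
    rw [isCoprime_comm, Prime.coprime_iff_not_dvd (Nat.prime_iff_prime_int.mp hq)]
    rintro ⟨k, rfl⟩
    apply hx1
    rw [← hi, zpow_mul, zpow_natCast, hgq, one_zpow]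
  obtain ⟨s, t, hst⟩ := hcop2
  have hgx : g = (x' : B ⧸ K) ^ s := by
    rw [← hi, ← zpow_mul]
    have : i * s = 1 - t * q := by linarith
    rw [this, zpow_sub, zpow_one, zpow_mul', zpow_natCast, hgq, one_zpow, inv_one, mul_one]
  apply le_antisymm hXB
  intro b hb
  obtain ⟨m, hm⟩ := mem_zpowers_iff.mp (hg ((⟨b, hb⟩ : B) : B ⧸ K))
  rw [hgx, ← zpow_mul, ← QuotientGroup.mk_zpow] at hm
  have h1 := QuotientGroup.eq.mp hm
  have h2 : ((x' ^ (s * m))⁻¹ * (⟨b, hb⟩ : B) : B) ∈ K := h1
  have h3 : (x ^ (s * m))⁻¹ * b ∈ B₀ := h2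
  have h4 : b = x ^ (s * m) * ((x ^ (s * m))⁻¹ * b) := by group
  rw [h4]
  exact mul_mem (zpow_mem hxX _) (hX.le h3)

end Cfsg.Agent.Lib.Helper41
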