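import Mathlib
import Cfsg.Agent.Lib.Helper2.Gaschutz
import Cfsg.Agent.Lib.Helper30.Coprime

/-!
# Ladder BG1212, rung CPL (pure, Gaschütz)
-/

set_option autoImplicit false
set_option linter.style.haveILetI false

namespace Cfsg.Agent.Lib.Helper41.BG1212

open Subgroup Cfsg.Agent.Lib.Helper30

/-- in a finite abelian group a subgroup meeting the `p`-th powers trivially has a complement -/
theorem cpl_comm {B : Type*} [CommGroup B] [Finite B] {p : ℕ} [Fact p.Prime] (A₀ : Subgroup B)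
    (hnp : ∀ s : B, s ^ p ∈ A₀ → s ^ p = 1) : ∃ T : Subgroup B, A₀ ⊓ T = ⊥ ∧ A₀ ⊔ T = ⊤ := by
  have hp : p.Prime := Fact.out
  let 𝓣 : Set (Subgroup B) := {T | (∀ s : B, s ^ p ∈ T) ∧ A₀ ⊓ T = ⊥}
  have hne : 𝓣.Nonempty := by
    refine ⟨(powMonoidHom p : B →* B).range, fun s => ⟨s, rfl⟩, ?_⟩
    rw [eq_bot_iff_forall]
    rintro x ⟨hx, s, rfl⟩
    exact hnp s hx
  obtain ⟨T, ⟨hT1, hT2⟩, hmax⟩ := (Set.toFinite 𝓣).exists_maximal hne
  refine ⟨T, hT2, ?_⟩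
  rw [eq_top_iff]
  intro s _
  by_contra hs
  have hnot : ¬ (A₀ ⊓ (T ⊔ zpowers s) = ⊥) := by
    intro h
    have h1 : T ⊔ zpowers s ≤ T :=
      hmax (y := T ⊔ zpowers s) ⟨fun x => (le_sup_left : T ≤ T ⊔ zpowers s) (hT1 x), h⟩ le_sup_left
    exact hs ((le_sup_right : T ≤ A₀ ⊔ T) (h1 ((le_sup_right : zpowers s ≤ T ⊔ zpowers s)
      (mem_zpowers s))))
  rw [eq_bot_iff_forall] at hnot
  push Not at hnot
  obtain ⟨a, ⟨haA, haT⟩, ha1⟩ := hnot
  obtain ⟨t, ht, z, hz, htz⟩ := mem_sup.1 haT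
  obtain ⟨k, rfl⟩ := mem_zpowers_iff.1 hz
  by_cases hk : (p : ℤ) ∣ k
  · obtain ⟨j, rfl⟩ := hk
    apply ha1
    have h1 : a ∈ A₀ ⊓ T := by
      refine ⟨haA, ?_⟩
      rw [← htz]
      apply T.mul_mem ht
      rw [mul_comm, zpow_mul, zpow_natCast]
      exact hT1 _
    rw [hT2] at h1
    exact h1
  · have hcop : IsCoprime (p : ℤ) k :=
      (Irreducible.coprime_iff_not_dvd (Nat.prime_iff_prime_int.1 hp).irreducible).2 hk
    obtain ⟨x, y, hxy⟩ := hcop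
    apply hs
    have h1 : s = (s ^ p) ^ x * (s ^ k) ^ y := by
      rw [← zpow_natCast, ← zpow_mul, ← zpow_mul, ← zpow_add, mul_comm (p : ℤ) x, mul_comm k y,
        hxy, zpow_one]
    rw [h1]
    apply (A₀ ⊔ T).mul_mem
    · exact (A₀ ⊔ T).zpow_mem ((le_sup_right : T ≤ A₀ ⊔ T) (hT1 s)) _
    · apply (A₀ ⊔ T).zpow_mem
      have h2 : s ^ k = a * t⁻¹ := by
        rw [← htz]
        rw [mul_comm t, mul_inv_cancel_right]
      rw [h2]
      exact (A₀ ⊔ T).mul_mem ((le_sup_left : A₀ ≤ A₀ ⊔ T) haA)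
        ((le_sup_right : T ≤ A₀ ⊔ T) (T.inv_mem ht))

variable {G : Type*} [Group G] [Finite G]

/-- the complement inside an abelian subgroup `S` of `G` -/
theorem cpl_in {p : ℕ} [Fact p.Prime] {S A₀ : Subgroup G}
    (hSc : ∀ a ∈ S, ∀ b ∈ S, a * b = b * a) (hA₀S : A₀ ≤ S)
    (hnp : ∀ s ∈ S, s ^ p ∈ A₀ → s ^ p = 1) :
    ∃ T : Subgroup G, T ≤ S ∧ A₀ ⊓ T = ⊥ ∧ A₀ ⊔ T = S := by
  letI : CommGroup S :=
    { (inferInstance : Group S) with mul_comm := fun a b => Subtype.ext (hSc a a.2 b b.2) }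
  obtain ⟨T, hT1, hT2⟩ := cpl_comm (B := S) (p := p) (A₀.subgroupOf S) (by
    intro s hs
    apply Subtype.ext
    exact hnp s s.2 hs)
  refine ⟨T.map S.subtype, map_subtype_le _, ?_, ?_⟩
  · have h1 := congrArg (Subgroup.map S.subtype) hT1
    rw [Subgroup.map_inf _ _ _ S.subtype_injective, map_subgroupOf_eq_of_le hA₀S,
      Subgroup.map_bot] at h1
    exact h1
  · have h1 := congrArg (Subgroup.map S.subtype) hT2
    rw [Subgroup.map_sup, map_subgroupOf_eq_of_le hA₀S, ← MonoidHom.range_eq_map,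
      range_subtype] at h1
    exact h1

/-- [CPL] pure (Gaschutz). -/
theorem exists_compl {p : ℕ} [Fact p.Prime] {E S A₀ : Subgroup G} (hS : IsSylowIn p S E)
    (hSc : ∀ a ∈ S, ∀ b ∈ S, a * b = b * a) (hA₀S : A₀ ≤ S) (hA₀ : Nat.card A₀ = p)
    (hEA₀ : E ≤ normalizer (A₀ : Set G)) (hnp : ∀ s ∈ S, s ^ p ∈ A₀ → s ^ p = 1) :
    ∃ E₀ : Subgroup G, E₀ ≤ E ∧ A₀ ⊓ E₀ = ⊥ ∧ A₀ ⊔ E₀ = E := by
  obtain ⟨T, hTS, hT1, hT2⟩ := cpl_in hSc hA₀S hnp
  have hA₀E : A₀ ≤ E := hA₀S.trans hS.le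
  haveI : (A₀.subgroupOf E).Normal := (normal_subgroupOf_iff_le_normalizer hA₀E).2 hEA₀
  haveI : IsMulCommutative (A₀.subgroupOf E) :=
    ⟨⟨fun a b => Subtype.ext (Subtype.ext (hSc _ (hA₀S a.2) _ (hA₀S b.2)))⟩⟩
  have hcard : Nat.card (A₀.subgroupOf E) = p := by
    rw [← hA₀]
    exact Nat.card_congr (subgroupOfEquivOfLe hA₀E).toEquiv
  obtain ⟨H, hH⟩ := Cfsg.Agent.Lib.Helper2.gaschutz_exists (A₀.subgroupOf E) (S.subgroupOf E)
    (T.subgroupOf E) (by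
      rw [hcard]
      exact (Nat.Prime.coprime_iff_not_dvd Fact.out).2 hS.not_dvd) (by
      rw [inf_comm]
      have h1 := congrArg (fun X => X.subgroupOf E) hT1
      simp only [bot_subgroupOf] at h1
      rw [← h1]
      rfl) (by
      rw [← subgroupOf_sup hA₀E (hTS.trans hS.le), hT2])
  refine ⟨H.map E.subtype, map_subtype_le _, ?_, ?_⟩
  · have h1 := congrArg (Subgroup.map E.subtype) hH.disjoint.eq_bot
    rw [Subgroup.map_inf _ _ _ E.subtype_injective, map_subgroupOf_eq_of_le hA₀E,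
      Subgroup.map_bot] at h1
    exact h1
  · have h1 := congrArg (Subgroup.map E.subtype) hH.sup_eq_top
    rw [Subgroup.map_sup, map_subgroupOf_eq_of_le hA₀E, ← MonoidHom.range_eq_map,
      range_subtype] at h1
    exact h1

end Cfsg.Agent.Lib.Helper41.BG1212
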