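import Mathlib
import Cfsg.Agent.Lib.Helper30.Coprime
import Cfsg.Agent.Lib.Helper30.Transitivity3

/-!
# Ladder BG1212, rung EXP (pure)
-/

set_option autoImplicit false
set_option linter.unusedSectionVars false
set_option linter.style.haveILetI false

namespace Cfsg.Agent.Lib.Helper41.BG1212

open Subgroup Cfsg.Agent.Lib.Helper30

variable {G : Type*} [Group G] [Finite G]

theorem exp_isPGroup_zpowers {r : ℕ} [Fact r.Prime] {y : G} {c : ℕ} (h : y ^ r ^ c = 1) :
    IsPGroup r (zpowers y) := by
  obtain ⟨i, _, hi⟩ := (Nat.dvd_prime_pow (Fact.out : r.Prime)).1 (orderOf_dvd_of_pow_eq_one h)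
  exact IsPGroup.of_card (n := i) (by rw [Nat.card_zpowers, hi])

/-- a normal Sylow subgroup contains all `r`-elements -/
theorem exp_mem_of_normal_sylow {r : ℕ} [Fact r.Prime] {E S : Subgroup G} (hS : IsSylowIn r S E)
    (hE : E ≤ normalizer (S : Set G)) {y : G} (hy : y ∈ E) {c : ℕ} (hyr : y ^ r ^ c = 1) :
    y ∈ S := by
  have h1 : IsPGroup r (zpowers y ⊔ S : Subgroup G) :=
    IsPGroup.to_sup_of_normal_right' (exp_isPGroup_zpowers hyr) hS.isPGroup
      (zpowers_le.2 (hE hy))
  have h2 := hS.eq_of_le (V := zpowers y ⊔ S) (sup_le (zpowers_le.2 hy) hS.le) h1 le_sup_right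
  rw [← h2]
  exact (le_sup_left : zpowers y ≤ zpowers y ⊔ S) (mem_zpowers y)

/-- Schur-Zassenhaus for a normal Sylow subgroup -/
theorem exp_exists_compl {p : ℕ} [Fact p.Prime] {E S : Subgroup G} (hS : IsSylowIn p S E)
    (hE : E ≤ normalizer (S : Set G)) :
    ∃ K : Subgroup G, K ≤ E ∧ S ⊓ K = ⊥ ∧ S ⊔ K = E ∧ (Nat.card K).Coprime p := by
  haveI : (S.subgroupOf E).Normal := (normal_subgroupOf_iff_le_normalizer hS.le).2 hE
  have hnd : Nat.Coprime p (S.subgroupOf E).index :=
    (Nat.Prime.coprime_iff_not_dvd Fact.out).2 hS.not_dvd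
  obtain ⟨n, hn⟩ := IsPGroup.iff_card.1 (hS.isPGroup.comap_subtype (K := E))
  obtain ⟨H, hH⟩ := exists_right_complement'_of_coprime (N := S.subgroupOf E) (by
    have h1 : Nat.card (S.subgroupOf E) = p ^ n := hn
    rw [h1]
    exact Nat.Coprime.pow_left n hnd)
  refine ⟨H.map E.subtype, map_subtype_le _, ?_, ?_, ?_⟩
  · have h1 := congrArg (Subgroup.map E.subtype) hH.disjoint.eq_bot
    rw [Subgroup.map_inf _ _ _ E.subtype_injective, map_subgroupOf_eq_of_le hS.le,
      Subgroup.map_bot] at h1
    exact h1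
  · have h1 := congrArg (Subgroup.map E.subtype) hH.sup_eq_top
    rw [Subgroup.map_sup, map_subgroupOf_eq_of_le hS.le, ← MonoidHom.range_eq_map,
      range_subtype] at h1
    exact h1
  · rw [card_map_of_injective E.subtype_injective, ← hH.symm.index_eq_card]
    exact hnd.symm

theorem exp_pow_mem {S : Subgroup G} {s k : G} (hs : s ∈ S) (hk : k ∈ normalizer (S : Set G))
    (j : ℕ) : (s * k) ^ j * (k ^ j)⁻¹ ∈ S := by
  induction j with
  | zero => simp
  | succ j ih =>
    have h1 : (s * k) ^ (j + 1) * (k ^ (j + 1))⁻¹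
        = ((s * k) ^ j * (k ^ j)⁻¹) * (k ^ j * s * (k ^ j)⁻¹) := by
      rw [pow_succ, pow_succ]
      group
    rw [h1]
    exact S.mul_mem ih ((mem_normalizer_iff.1 ((normalizer (S : Set G)).pow_mem hk j) s).1 hs)

theorem exp_aux (good : G → Prop) : ∀ (n : ℕ) (E : Subgroup G), Nat.card E ≤ n →
    (∀ p : ℕ, p.Prime → p ∣ Nat.card E → (∀ e ∈ E, orderOf e = p → good e) ∨
      ∃ S B : Subgroup G, IsSylowIn p S E ∧ E ≤ normalizer (S : Set G) ∧ B ≤ S ∧
        E ≤ normalizer (B : Set G) ∧ (∀ s ∈ S, ∃ b ∈ B, orderOf s ∣ orderOf b) ∧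
        ∀ b ∈ B, orderOf b = p → good b) →
    ∃ E₀ : Subgroup G, E₀ ≤ E ∧ Monoid.exponent E₀ = Monoid.exponent E ∧
      ∀ e ∈ E₀, (orderOf e).Prime → good e := by
  intro n
  induction n with
  | zero =>
    intro E hE _
    have : 0 < Nat.card E := Nat.card_pos
    omega
  | succ n ih =>
    intro E hEn h
    by_cases hall : ∀ p : ℕ, p.Prime → p ∣ Nat.card E → ∀ e ∈ E, orderOf e = p → good e
    · refine ⟨E, le_rfl, rfl, fun e he hp => hall _ hp ?_ e he rfl⟩
      rw [← orderOf_mk e he]
      exact orderOf_dvd_natCard _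
    · push Not at hall
      obtain ⟨p, hp, hpE, e, heE, heo, hng⟩ := hall
      rcases h p hp hpE with h1 | ⟨S, B, hS, hES, hBS, hEB, hexp, hgood⟩
      · exact absurd (h1 e heE heo) hng
      haveI : Fact p.Prime := ⟨hp⟩
      have heS : e ∈ S := exp_mem_of_normal_sylow hS hES heE (c := 1) (by
        rw [pow_one, ← heo]
        exact pow_orderOf_eq_one e)
      have heB : e ∉ B := fun hb => hng (hgood e hb heo)
      obtain ⟨K, hKE, hSK, hSKE, hKp⟩ := exp_exists_compl hS hES
      have hKB : K ≤ normalizer (B : Set G) := hKE.trans hEB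
      have hKS : K ≤ normalizer (S : Set G) := hKE.trans hES
      have hE₁E : B ⊔ K ≤ E := sup_le (hBS.trans hS.le) hKE
      have hF : ∀ g ∈ B ⊔ K, g ∈ S → g ∈ B := by
        intro g hg hgS
        obtain ⟨b, hb, k, hk, rfl⟩ := (mem_sup_of_le_normalizer hKB).1 hg
        have h1 : k ∈ S ⊓ K := by
          refine ⟨?_, hk⟩
          have : k = b⁻¹ * (b * k) := by group
          rw [this]
          exact S.mul_mem (S.inv_mem (hBS hb)) hgS
        rw [hSK, mem_bot] at h1
        rw [h1, mul_one]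
        exact hb
      have hlt : B ⊔ K < E := lt_of_le_of_ne hE₁E (fun heq => heB (hF e (heq ▸ heE) heS))
      have hcard : Nat.card (B ⊔ K : Subgroup G) ≤ n := by
        have := card_lt_of_lt hlt
        omega
      obtain ⟨E₀, hE₀, hexp₀, hgood₀⟩ := ih (B ⊔ K) hcard (by
        intro r hr hrE₁
        by_cases hrp : r = p
        · subst hrp
          left
          intro g hg hgo
          refine hgood g (hF g hg (exp_mem_of_normal_sylow hS hES (hE₁E hg) (c := 1) ?_)) hgo
          rw [pow_one, ← hgo]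
          exact pow_orderOf_eq_one g
        · haveI : Fact r.Prime := ⟨hr⟩
          rcases h r hr (hrE₁.trans (card_dvd_of_le hE₁E)) with
            h1 | ⟨Sr, Br, hSr, hESr, hBSr, hEBr, hexpr, hgoodr⟩
          · exact Or.inl (fun g hg => h1 g (hE₁E hg))
          · right
            have hle : Sr ≤ B ⊔ K := by
              intro x hx
              have hxE : x ∈ S ⊔ K := by
                rw [hSKE]
                exact hSr.le hx
              obtain ⟨s, hs, k, hk, rfl⟩ := (mem_sup_of_le_normalizer hKS).1 hxE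
              obtain ⟨c, hc⟩ := hSr.isPGroup ⟨s * k, hx⟩
              have hc' : (s * k) ^ r ^ c = 1 := congrArg Subtype.val hc
              have h2 := exp_pow_mem hs (hKS hk) (r ^ c)
              rw [hc', one_mul] at h2
              have h3 : k ^ r ^ c ∈ S ⊓ K := ⟨by simpa using S.inv_mem h2, K.pow_mem hk _⟩
              rw [hSK, mem_bot] at h3
              have hkSr : k ∈ Sr := exp_mem_of_normal_sylow hSr hESr (hKE hk) h3
              have hsSr : s ∈ Sr ⊓ S := by
                refine ⟨?_, hs⟩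
                have : s = (s * k) * k⁻¹ := by group
                rw [this]
                exact Sr.mul_mem hx (Sr.inv_mem hkSr)
              rw [(IsPGroup.disjoint_of_ne r p hrp Sr S hSr.isPGroup hS.isPGroup).eq_bot,
                mem_bot] at hsSr
              rw [hsSr, one_mul]
              exact (le_sup_right : K ≤ B ⊔ K) hk
            refine ⟨Sr, Br, ⟨hle, hSr.isPGroup, fun hd => hSr.not_dvd ?_⟩, hE₁E.trans hESr, hBSr,
              hE₁E.trans hEBr, hexpr, hgoodr⟩
            rw [← relIndex_mul_relIndex Sr (B ⊔ K) E hle hE₁E]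
            exact Dvd.dvd.mul_right hd _)
      refine ⟨E₀, hE₀.trans hE₁E, hexp₀.trans ?_, hgood₀⟩
      apply Nat.dvd_antisymm
      · rw [Monoid.exponent_dvd_iff_forall_pow_eq_one]
        intro g
        apply Subtype.ext
        have h5 := Monoid.pow_exponent_eq_one (⟨g.1, hE₁E g.2⟩ : E)
        have h6 : (g : G) ^ Monoid.exponent E = 1 := congrArg Subtype.val h5
        exact h6
      · rw [Monoid.exponent_dvd_iff_forall_pow_eq_one]
        intro g
        apply Subtype.ext
        change (g : G) ^ Monoid.exponent (B ⊔ K : Subgroup G) = 1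
        have hgE : (g : G) ∈ S ⊔ K := by
          rw [hSKE]
          exact g.2
        obtain ⟨s, hs, k, hk, hg⟩ := (mem_sup_of_le_normalizer hKS).1 hgE
        rw [hg]
        have hj : orderOf k ∣ Monoid.exponent (B ⊔ K : Subgroup G) := by
          rw [← orderOf_mk k ((le_sup_right : K ≤ B ⊔ K) hk)]
          exact Monoid.order_dvd_exponent _
        have h2 := exp_pow_mem hs (hKS hk) (orderOf k)
        rw [pow_orderOf_eq_one, inv_one, mul_one] at h2
        obtain ⟨b, hb, hbo⟩ := hexp _ h2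
        have ht : orderOf ((s * k) ^ orderOf k) ∣ Monoid.exponent (B ⊔ K : Subgroup G) := by
          apply hbo.trans
          rw [← orderOf_mk b ((le_sup_left : B ≤ B ⊔ K) hb)]
          exact Monoid.order_dvd_exponent _
        obtain ⟨c, hc⟩ := hS.isPGroup ⟨_, h2⟩
        have hc' : ((s * k) ^ orderOf k) ^ p ^ c = 1 := congrArg Subtype.val hc
        have hcop : Nat.Coprime (orderOf k) (orderOf ((s * k) ^ orderOf k)) := by
          apply Nat.Coprime.coprime_dvd_right (orderOf_dvd_of_pow_eq_one hc')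
          apply Nat.Coprime.pow_right
          apply Nat.Coprime.coprime_dvd_left _ hKp
          rw [← orderOf_mk k hk]
          exact orderOf_dvd_natCard _
        obtain ⟨d, hd⟩ := hcop.mul_dvd_of_dvd_of_dvd hj ht
        rw [hd, pow_mul, pow_mul, pow_orderOf_eq_one, one_pow]

/-- [EXP] pure. -/
theorem exists_same_exponent {E : Subgroup G} (good : G → Prop)
    (h : ∀ p : ℕ, p.Prime → p ∣ Nat.card E → (∀ e ∈ E, orderOf e = p → good e) ∨
      ∃ S B : Subgroup G, IsSylowIn p S E ∧ E ≤ normalizer (S : Set G) ∧ B ≤ S ∧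
        E ≤ normalizer (B : Set G) ∧ (∀ s ∈ S, ∃ b ∈ B, orderOf s ∣ orderOf b) ∧
        ∀ b ∈ B, orderOf b = p → good b) :
    ∃ E₀ : Subgroup G, E₀ ≤ E ∧ Monoid.exponent E₀ = Monoid.exponent E ∧
      ∀ e ∈ E₀, (orderOf e).Prime → good e :=
  exp_aux good _ E le_rfl h

end Cfsg.Agent.Lib.Helper41.BG1212
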