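import Cfsg.Agent.Lib.Helper61.FHDefsBN
import Cfsg.Prelude.Def_LieExceptional

set_option autoImplicit false

/-! Rung T of the ladder towards S1142: the indicator matrices of the double cosets of a finite
group with a (B,N)-pair on the chamber set. -/

namespace Cfsg.Agent.Lib.Helper41.FH

open Matrix Cfsg.Agent.Lib.Helper8 Cfsg.Agent.Lib.Helper61.FH

universe u
variable {G : Type u} [Group G] (P : Cfsg.BNPair G)

theorem Ch_exists (x : Ch P) : ∃ g : G, x = Ch.mk P g :=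
  ⟨Quotient.out (s := QuotientGroup.leftRel P.B) x, (Quotient.out_eq' x).symm⟩

theorem Ch_mk_eq {g h : G} : Ch.mk P g = Ch.mk P h ↔ g⁻¹ * h ∈ P.B :=
  QuotientGroup.eq

theorem out_mk (g : G) : ∃ b ∈ P.B,
    Quotient.out (s := QuotientGroup.leftRel P.B) (Ch.mk P g) = g * b := by
  obtain ⟨b, hb⟩ := QuotientGroup.mk_out_eq_mul P.B g
  exact ⟨b, b.2, hb⟩

theorem mem_C_iff (w : Wy P) {g b b' : G} (hb : b ∈ P.B) (hb' : b' ∈ P.B) :
    b * g * b' ∈ C P w ↔ g ∈ C P w := by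
  constructor
  · intro h
    have h1 := C_mul_right (inv_mem hb') (C_mul_left (inv_mem hb) h)
    have : b⁻¹ * (b * g * b') * b'⁻¹ = g := by group
    rwa [this] at h1
  · intro h
    exact C_mul_right hb' (C_mul_left hb h)

open Classical in
theorem Tm_apply (w : Wy P) (g h : G) :
    Tm P w (Ch.mk P g) (Ch.mk P h) = if g⁻¹ * h ∈ C P w then 1 else 0 := by
  obtain ⟨b, hb, hgb⟩ := out_mk P g
  obtain ⟨b', hb', hhb⟩ := out_mk P h
  unfold Tm
  rw [hgb, hhb]
  have : (g * b)⁻¹ * (h * b') = b⁻¹ * (g⁻¹ * h) * b' := by group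
  rw [this]
  simp only [mem_C_iff P w (inv_mem hb) hb']

theorem Tm_eq_one_or_zero (w : Wy P) (x y : Ch P) : Tm P w x y = 1 ∨ Tm P w x y = 0 := by
  classical
  unfold Tm
  split_ifs
  · exact Or.inl rfl
  · exact Or.inr rfl

theorem Tm_eq_one_iff (w : Wy P) (g h : G) :
    Tm P w (Ch.mk P g) (Ch.mk P h) = 1 ↔ g⁻¹ * h ∈ C P w := by
  classical
  rw [Tm_apply]
  split_ifs with h1
  · simp [h1]
  · simp [h1]

theorem Tm_eq_zero_iff (w : Wy P) (g h : G) :
    Tm P w (Ch.mk P g) (Ch.mk P h) = 0 ↔ g⁻¹ * h ∉ C P w := by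
  classical
  rw [Tm_apply]
  split_ifs with h1
  · simp [h1]
  · simp [h1]

theorem Tm_one : Tm P 1 = 1 := by
  classical
  ext x y
  obtain ⟨g, rfl⟩ := Ch_exists P x
  obtain ⟨h, rfl⟩ := Ch_exists P y
  rw [Tm_apply, Matrix.one_apply]
  simp only [mem_C_one, Ch_mk_eq]

theorem Tm_transpose (w : Wy P) : (Tm P w)ᵀ = Tm P w⁻¹ := by
  classical
  ext x y
  obtain ⟨g, rfl⟩ := Ch_exists P x
  obtain ⟨h, rfl⟩ := Ch_exists P y
  rw [Matrix.transpose_apply, Tm_apply, Tm_apply]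
  have : h⁻¹ * g ∈ C P w ↔ g⁻¹ * h ∈ C P w⁻¹ := by
    constructor
    · intro h1
      have := C_inv h1
      simpa using this
    · intro h1
      have := C_inv h1
      simpa using this
  simp only [this]

variable [Finite G]

theorem Tm_mul {s : P.S} {w : Wy P} (hw : w ∈ Qs P s) :
    Tm P (sg P s) * Tm P w = Tm P (sg P s * w) := by
  classical
  ext x y
  obtain ⟨g, rfl⟩ := Ch_exists P x
  obtain ⟨h, rfl⟩ := Ch_exists P y
  rw [Matrix.mul_apply]
  by_cases hgh : g⁻¹ * h ∈ C P (sg P s * w)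
  · rw [(Tm_eq_one_iff P _ g h).mpr hgh]
    obtain ⟨a, ha, b, hb, hab⟩ := C_sub_mul hgh
    rw [Finset.sum_eq_single (Ch.mk P (g * a))]
    · have h1 : Tm P (sg P s) (Ch.mk P g) (Ch.mk P (g * a)) = 1 := by
        rw [Tm_eq_one_iff]
        simpa using ha
      have h2 : Tm P w (Ch.mk P (g * a)) (Ch.mk P h) = 1 := by
        rw [Tm_eq_one_iff]
        have : (g * a)⁻¹ * h = b := by
          calc (g * a)⁻¹ * h = a⁻¹ * (g⁻¹ * h) := by group
            _ = b := by rw [hab]; group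
        rwa [this]
      rw [h1, h2, mul_one]
    · intro z _ hz
      obtain ⟨k, rfl⟩ := Ch_exists P z
      by_contra hne
      have h1 : Tm P (sg P s) (Ch.mk P g) (Ch.mk P k) ≠ 0 := left_ne_zero_of_mul hne
      have h2 : Tm P w (Ch.mk P k) (Ch.mk P h) ≠ 0 := right_ne_zero_of_mul hne
      rw [Ne, Tm_eq_zero_iff, not_not] at h1 h2
      apply hz
      rw [eq_comm, Ch_mk_eq]
      have e : a * b = (g⁻¹ * k) * (k⁻¹ * h) := by rw [← hab]; group
      have := Cfsg.Agent.Lib.Helper45.inv_mul_mem_B hw ha h1 hb h2 e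
      have e2 : (g * a)⁻¹ * k = a⁻¹ * (g⁻¹ * k) := by group
      rwa [e2]
    · intro hh
      exact absurd (Finset.mem_univ _) hh
  · rw [(Tm_eq_zero_iff P _ g h).mpr hgh]
    apply Finset.sum_eq_zero
    intro z _
    obtain ⟨k, rfl⟩ := Ch_exists P z
    by_contra hne
    have h1 : Tm P (sg P s) (Ch.mk P g) (Ch.mk P k) ≠ 0 := left_ne_zero_of_mul hne
    have h2 : Tm P w (Ch.mk P k) (Ch.mk P h) ≠ 0 := right_ne_zero_of_mul hne
    rw [Ne, Tm_eq_zero_iff, not_not] at h1 h2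
    apply hgh
    have := hw _ h1 _ h2
    have e : (g⁻¹ * k) * (k⁻¹ * h) = g⁻¹ * h := by group
    rwa [e] at this

/-- the chambers at "distance" `w` from the chamber `g B` -/
def Nb (w : Wy P) (g : G) : Set (Ch P) := {y | Tm P w (Ch.mk P g) y = 1}

theorem mk_mem_Nb (w : Wy P) (g h : G) : Ch.mk P h ∈ Nb P w g ↔ g⁻¹ * h ∈ C P w :=
  Tm_eq_one_iff P w g h

theorem card_C_eq (w : Wy P) : Nat.card (C P w) = Nat.card (Nb P w 1) * Nat.card P.B := by
  classical
  rw [← Nat.card_prod]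
  let e : G ≃ (G ⧸ P.B) × P.B := Subgroup.groupEquivQuotientProdSubgroup
  have he : ∀ g : G, (e g).1 = (QuotientGroup.mk g : G ⧸ P.B) := fun g => rfl
  refine Nat.card_congr
    { toFun := fun g => (⟨(e g.1).1, ?_⟩, (e g.1).2)
      invFun := fun z => ⟨e.symm (z.1.1, z.2), ?_⟩
      left_inv := ?_
      right_inv := ?_ }
  · rw [he]
    have := (mk_mem_Nb P w 1 g.1).mpr (by simpa using g.2)
    exact this
  · have h1 : (e (e.symm (z.1.1, z.2))).1 = z.1.1 := by rw [Equiv.apply_symm_apply]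
    rw [he] at h1
    have h2 : Ch.mk P (e.symm (z.1.1, z.2)) ∈ Nb P w 1 := by
      have : Ch.mk P (e.symm (z.1.1, z.2)) = z.1.1 := h1
      rw [this]
      exact z.1.2
    simpa using (mk_mem_Nb P w 1 _).mp h2
  · intro g
    apply Subtype.ext
    simp
  · intro z
    apply Prod.ext
    · apply Subtype.ext
      simp
    · simp

theorem card_B_pos : 0 < Nat.card P.B := Nat.card_pos

theorem qq_eq (w : Wy P) : qq P w = Nat.card (Nb P w 1) := by
  unfold qq
  rw [card_C_eq, Nat.mul_div_cancel _ (card_B_pos P)]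

theorem card_C_eq' (w : Wy P) : Nat.card (C P w) = qq P w * Nat.card P.B := by
  rw [qq_eq, card_C_eq]

theorem card_Nb (w : Wy P) (g : G) : Nat.card (Nb P w g) = qq P w := by
  rw [qq_eq]
  let σ : Equiv.Perm (Ch P) := (MulAction.toPerm g⁻¹ : Equiv.Perm (G ⧸ P.B))
  refine Nat.card_congr (Equiv.subtypeEquiv σ ?_)
  intro y
  obtain ⟨h, rfl⟩ := Ch_exists P y
  change Ch.mk P h ∈ Nb P w g ↔ Ch.mk P (g⁻¹ * h) ∈ Nb P w 1
  rw [mk_mem_Nb, mk_mem_Nb]
  simp

theorem qq_mul {s : P.S} {w : Wy P} (hw : w ∈ Qs P s) :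
    qq P (sg P s * w) = qq P (sg P s) * qq P w := by
  have h := Cfsg.Agent.Lib.Helper45.card_C_mul hw
  rw [card_C_eq', card_C_eq', card_C_eq'] at h
  have hB := card_B_pos P
  have h2 : qq P (sg P s * w) * (Nat.card P.B * Nat.card P.B)
      = (qq P (sg P s) * qq P w) * (Nat.card P.B * Nat.card P.B) := by
    calc qq P (sg P s * w) * (Nat.card P.B * Nat.card P.B)
        = qq P (sg P s * w) * Nat.card P.B * Nat.card P.B := by ring
      _ = qq P (sg P s) * Nat.card P.B * (qq P w * Nat.card P.B) := h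
      _ = _ := by ring
  exact Nat.eq_of_mul_eq_mul_right (Nat.mul_pos hB hB) h2

theorem qq_one : qq P 1 = 1 := by
  unfold qq
  rw [C_one]
  exact Nat.div_self (card_B_pos P)

/-- row sums -/
theorem sum_Tm (w : Wy P) (x : Ch P) : ∑ y, Tm P w x y = (qq P w : ℝ) := by
  classical
  obtain ⟨g, rfl⟩ := Ch_exists P x
  rw [← card_Nb P w g, Nat.card_eq_fintype_card, Fintype.card_subtype, Finset.card_eq_sum_ones,
    Finset.sum_filter]
  push_cast
  apply Finset.sum_congr rfl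
  intro y _
  rcases Tm_eq_one_or_zero P w (Ch.mk P g) y with h | h
  · rw [h, if_pos (show y ∈ Nb P w g from h)]
  · rw [h, if_neg]
    intro h2
    have h3 : Tm P w (Ch.mk P g) y = 1 := h2
    rw [h] at h3
    exact zero_ne_one h3

theorem Tm_mul_self (w : Wy P) (x y : Ch P) : Tm P w x y * Tm P w x y = Tm P w x y := by
  rcases Tm_eq_one_or_zero P w x y with h | h <;> rw [h] <;> simp

theorem trace_Tm_self (w : Wy P) :
    trace (Tm P w * (Tm P w)ᵀ) = (Fintype.card (Ch P) : ℝ) * qq P w := by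
  classical
  simp only [Matrix.trace, Matrix.diag_apply, Matrix.mul_apply, Matrix.transpose_apply,
    Tm_mul_self, sum_Tm]
  simp

theorem trace_Tm_ne {w w' : Wy P} (h : w ≠ w') : trace (Tm P w * (Tm P w')ᵀ) = 0 := by
  classical
  simp only [Matrix.trace, Matrix.diag_apply, Matrix.mul_apply, Matrix.transpose_apply]
  apply Finset.sum_eq_zero
  intro x _
  apply Finset.sum_eq_zero
  intro y _
  obtain ⟨g, rfl⟩ := Ch_exists P x
  obtain ⟨k, rfl⟩ := Ch_exists P y
  by_contra hne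
  have h1 : Tm P w (Ch.mk P g) (Ch.mk P k) ≠ 0 := left_ne_zero_of_mul hne
  have h2 : Tm P w' (Ch.mk P g) (Ch.mk P k) ≠ 0 := right_ne_zero_of_mul hne
  rw [Ne, Tm_eq_zero_iff, not_not] at h1 h2
  exact h (C_inj h1 h2)

theorem C_s_mul {s : P.S} {a b : G} (ha : a ∈ C P (sg P s)) (hb : b ∈ C P (sg P s)) :
    a * b ∈ P.B ∨ a * b ∈ C P (sg P s) := by
  rcases C_T3 ha hb with h | h
  · rw [sg_mul_self] at h
    exact Or.inl (mem_C_one.1 h)
  · exact Or.inr h

theorem C_s_inv {s : P.S} {a : G} (ha : a ∈ C P (sg P s)) : a⁻¹ ∈ C P (sg P s) := by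
  have := C_inv ha
  rwa [sg_inv] at this

theorem not_mem_B_of_mem_C_s {s : P.S} {a : G} (ha : a ∈ C P (sg P s)) : a ∉ P.B := by
  intro hB
  exact sg_ne_one s (C_inj ha (mem_C_one.2 hB))

theorem Tm_sq (s : P.S) : Tm P (sg P s) * Tm P (sg P s) =
    (qq P (sg P s) : ℝ) • (1 : Matrix (Ch P) (Ch P) ℝ) + ((qq P (sg P s) : ℝ) - 1) • Tm P (sg P s) := by
  classical
  ext x y
  obtain ⟨g, rfl⟩ := Ch_exists P x
  obtain ⟨h, rfl⟩ := Ch_exists P y
  rw [Matrix.mul_apply, Matrix.add_apply, Matrix.smul_apply, Matrix.smul_apply, Matrix.one_apply,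
    smul_eq_mul, smul_eq_mul]
  by_cases hB : g⁻¹ * h ∈ P.B
  · -- same chamber
    have hxy : Ch.mk P g = Ch.mk P h := (Ch_mk_eq P).mpr hB
    have h0 : Tm P (sg P s) (Ch.mk P g) (Ch.mk P h) = 0 := by
      rw [Tm_eq_zero_iff]
      intro hC
      exact not_mem_B_of_mem_C_s P hC hB
    rw [h0, if_pos hxy, mul_one, mul_zero, add_zero, ← hxy, ← sum_Tm P (sg P s) (Ch.mk P g)]
    apply Finset.sum_congr rfl
    intro z _
    obtain ⟨k, rfl⟩ := Ch_exists P z
    have : Tm P (sg P s) (Ch.mk P k) (Ch.mk P g) = Tm P (sg P s) (Ch.mk P g) (Ch.mk P k) := by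
      have h1 := congrFun (congrFun (Tm_transpose P (sg P s)) (Ch.mk P g)) (Ch.mk P k)
      rw [Matrix.transpose_apply, sg_inv] at h1
      exact h1
    rw [this, Tm_mul_self]
  · have hxy : Ch.mk P g ≠ Ch.mk P h := fun e => hB ((Ch_mk_eq P).mp e)
    rw [if_neg hxy, mul_zero, zero_add]
    by_cases hC : g⁻¹ * h ∈ C P (sg P s)
    · rw [(Tm_eq_one_iff P _ g h).mpr hC, mul_one, ← sum_Tm P (sg P s) (Ch.mk P g)]
      rw [← Finset.add_sum_erase Finset.univ _ (Finset.mem_univ (Ch.mk P h)),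
        ← Finset.add_sum_erase Finset.univ (fun z => Tm P (sg P s) (Ch.mk P g) z)
          (Finset.mem_univ (Ch.mk P h))]
      have h1 : Tm P (sg P s) (Ch.mk P h) (Ch.mk P h) = 0 := by
        rw [Tm_eq_zero_iff]
        intro hh
        apply not_mem_B_of_mem_C_s P hh
        simp
      rw [h1, mul_zero, zero_add, (Tm_eq_one_iff P _ g h).mpr hC, add_sub_cancel_left]
      apply Finset.sum_congr rfl
      intro z hz
      obtain ⟨k, rfl⟩ := Ch_exists P z
      have hkh : Ch.mk P k ≠ Ch.mk P h := (Finset.mem_erase.mp hz).1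
      rcases Tm_eq_one_or_zero P (sg P s) (Ch.mk P g) (Ch.mk P k) with h2 | h2
      · rw [h2, one_mul, Tm_eq_one_iff]
        rw [Tm_eq_one_iff] at h2
        have e : k⁻¹ * h = (g⁻¹ * k)⁻¹ * (g⁻¹ * h) := by group
        rcases C_s_mul P (C_s_inv P h2) hC with h3 | h3
        · exfalso
          apply hkh
          rw [Ch_mk_eq, e]
          exact h3
        · rw [e]
          exact h3
      · rw [h2, zero_mul]
    · rw [(Tm_eq_zero_iff P _ g h).mpr hC, mul_zero]
      apply Finset.sum_eq_zero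
      intro z _
      obtain ⟨k, rfl⟩ := Ch_exists P z
      by_contra hne
      have h1 : Tm P (sg P s) (Ch.mk P g) (Ch.mk P k) ≠ 0 := left_ne_zero_of_mul hne
      have h2 : Tm P (sg P s) (Ch.mk P k) (Ch.mk P h) ≠ 0 := right_ne_zero_of_mul hne
      rw [Ne, Tm_eq_zero_iff, not_not] at h1 h2
      have e : (g⁻¹ * k) * (k⁻¹ * h) = g⁻¹ * h := by group
      rcases C_s_mul P h1 h2 with h3 | h3
      · exact hB (e ▸ h3)
      · exact hC (e ▸ h3)

theorem two_le_qq (s : P.S) : 2 ≤ qq P (sg P s) := by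
  classical
  obtain ⟨a, ha, b, hb, hab⟩ := C_T4 s
  -- the chambers `a B` and `(a b) B` are distinct neighbours of `B`
  rw [← card_Nb P (sg P s) 1]
  have h1 : Ch.mk P a ∈ Nb P (sg P s) 1 := (mk_mem_Nb P _ 1 a).mpr (by simpa using ha)
  have h2 : Ch.mk P (a * b) ∈ Nb P (sg P s) 1 := (mk_mem_Nb P _ 1 (a * b)).mpr (by simpa using hab)
  have hne : Ch.mk P a ≠ Ch.mk P (a * b) := by
    intro e
    rw [Ch_mk_eq] at e
    apply not_mem_B_of_mem_C_s P hb
    simpa using e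
  have : Nontrivial ↥(Nb P (sg P s) 1) :=
    ⟨⟨⟨_, h1⟩, ⟨_, h2⟩, fun e => hne (congrArg Subtype.val e)⟩⟩
  exact Finite.one_lt_card

end Cfsg.Agent.Lib.Helper41.FH
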