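import Cfsg.Agent.Lib.Lead.HKK.Basic

set_option autoImplicit false

namespace Cfsg.Agent.Lib.Helper41.HKK

open Cfsg.Agent.Lib.Lead.HKK

theorem lie_mem_iSup_brk {L : Type*} [LieRing L] {n : ℕ} {A B : ZMod n → AddSubgroup L} {x y : L}
    (hx : x ∈ ⨆ i, A i) (hy : y ∈ ⨆ i, B i) : ⁅x, y⁆ ∈ ⨆ i, brk A B i := by
  refine AddSubgroup.iSup_induction A (C := fun x => ⁅x, y⁆ ∈ ⨆ i, brk A B i) hx ?_ ?_ ?_
  · intro a x hxa
    refine AddSubgroup.iSup_induction B (C := fun y => ⁅x, y⁆ ∈ ⨆ i, brk A B i) hy ?_ ?_ ?_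
    · intro b y hyb
      exact AddSubgroup.mem_iSup_of_mem (a + b) (mem_brk hxa hyb)
    · rw [lie_zero]; exact zero_mem _
    · intro y₁ y₂ h₁ h₂
      rw [lie_add]; exact add_mem h₁ h₂
  · rw [zero_lie]; exact zero_mem _
  · intro x₁ x₂ h₁ h₂
    rw [add_lie]; exact add_mem h₁ h₂

theorem lnb_mem_iSup_gam {L : Type*} [LieRing L] {n : ℕ} (K : ZMod n → AddSubgroup L) (u : L)
    (hu : u ∈ ⨆ i, K i) (l : List L) (hlK : ∀ y ∈ l, y ∈ ⨆ i, K i) :
    lnb u l ∈ ⨆ i, gam K l.length i := by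
  induction l using List.reverseRecOn with
  | nil => exact hu
  | append_singleton l y ih =>
    rw [lnb_concat, List.length_append, List.length_singleton]
    exact lie_mem_iSup_brk (ih fun z hz => hlK z (by simp [hz])) (hlK y (by simp))

/-- RUNG TOT -/
theorem lnb_eq_zero_of_gam {L : Type*} [LieRing L] {n : ℕ} (K : ZMod n → AddSubgroup L) (c : ℕ)
    (hc : ∀ i, gam K c i = ⊥) (u : L) (hu : u ∈ ⨆ i, K i) (l : List L) (hl : l.length = c)
    (hlK : ∀ y ∈ l, y ∈ ⨆ i, K i) : lnb u l = 0 := by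
  have h := lnb_mem_iSup_gam K u hu l hlK
  rw [hl, iSup_eq_bot.mpr hc] at h
  exact AddSubgroup.mem_bot.mp h

end Cfsg.Agent.Lib.Helper41.HKK
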