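import Cfsg.Agent.Lib.Lead.HKK.Conv
import Cfsg.Agent.Lib.Helper41.HKKTot

set_option autoImplicit false
set_option linter.unusedSectionVars false

namespace Cfsg.Agent.Lib.Helper41.HKK

open Cfsg.Agent.Lib.Lead.HKK

universe u

variable {L : Type u} [LieRing L] {p : ℕ} [Fact p.Prime]

/-- evaluation as an additive hom -/
def evalHom (k : ZMod p) : Conv p L →+ L where
  toFun f := f k
  map_zero' := rfl
  map_add' _ _ := rfl

theorem conv_sum_apply {ι : Type*} (s : Finset ι) (F : ι → Conv p L) (k : ZMod p) :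
    (∑ j ∈ s, F j) k = ∑ j ∈ s, F j k :=
  map_sum (evalHom k) F s

/-- the `j`-th "eigenspace" of `φ` in the convolution ring -/
def Ecomp (φ : L ≃+ L) (j : ZMod p) : AddSubgroup (Conv p L) where
  carrier := {f | ∀ k, φ (f k) = f (k - j)}
  zero_mem' := by intro k; simp
  add_mem' := by
    intro f g hf hg k
    rw [Conv.add_apply, Conv.add_apply, map_add, hf k, hg k]
  neg_mem' := by
    intro f hf k
    rw [Conv.neg_apply, Conv.neg_apply, map_neg, hf k]

theorem lie_mem_Ecomp (φ : L ≃+ L) (hφ : ∀ x y : L, φ ⁅x, y⁆ = ⁅φ x, φ y⁆) {a b : ZMod p}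
    {f g : Conv p L} (hf : f ∈ Ecomp φ a) (hg : g ∈ Ecomp φ b) : ⁅f, g⁆ ∈ Ecomp φ (a + b) := by
  intro k
  rw [Conv.lie_apply, Conv.lie_apply, map_sum]
  refine Fintype.sum_equiv (Equiv.subRight a) _ _ (fun i => ?_)
  rw [hφ, hf i, hg (k - i), Equiv.subRight_apply]
  have : k - i - b = k - (a + b) - (i - a) := by abel
  rw [this]

theorem nsmul_eq_zero_of_mem_E0 {φ : L ≃+ L} {N : ℕ} (hN : ∀ w : L, φ w = w → N • w = 0)
    {f : Conv p L} (hf : f ∈ Ecomp φ 0) : N • f = 0 := by
  ext k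
  rw [Conv.nsmul_apply, Conv.zero_apply]
  apply hN
  have := hf k
  rwa [sub_zero] at this

/-- the graded family -/
noncomputable def Kfam (φ : L ≃+ L) (N : ℕ) (j : ZMod p) : AddSubgroup (Conv p L) :=
  if j = 0 then ⊥ else (Ecomp φ j).map (nsmulAddMonoidHom N)

theorem isGr_Kfam (φ : L ≃+ L) (hφ : ∀ x y : L, φ ⁅x, y⁆ = ⁅φ x, φ y⁆) {N : ℕ}
    (hN : ∀ w : L, φ w = w → N • w = 0) : IsGr (Kfam (p := p) φ N) := by
  refine ⟨by simp [Kfam], ?_⟩
  intro a b x y hx hy
  by_cases ha : a = 0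
  · have : x = 0 := by simpa [Kfam, ha] using hx
    rw [this, zero_lie]; exact zero_mem _
  by_cases hb : b = 0
  · have : y = 0 := by simpa [Kfam, hb] using hy
    rw [this, lie_zero]; exact zero_mem _
  rw [Kfam, if_neg ha] at hx
  rw [Kfam, if_neg hb] at hy
  obtain ⟨f, hf, rfl⟩ := hx
  obtain ⟨g, hg, rfl⟩ := hy
  have hfg := lie_mem_Ecomp φ hφ hf hg
  have e : ⁅nsmulAddMonoidHom N f, nsmulAddMonoidHom N g⁆ = N • (N • ⁅f, g⁆) := by
    simp only [nsmulAddMonoidHom_apply, nsmul_lie, lie_nsmul]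
  rw [e]
  by_cases hab : a + b = 0
  · rw [hab] at hfg
    rw [nsmul_eq_zero_of_mem_E0 hN hfg, smul_zero]; exact zero_mem _
  · rw [Kfam, if_neg hab]
    exact ⟨N • ⁅f, g⁆, nsmul_mem hfg N, rfl⟩

theorem iter_mod (φ : L ≃+ L) (hp : ∀ x : L, φ^[p] x = x) (n : ℕ) (u : L) :
    φ^[n % p] u = φ^[n] u := by
  conv_rhs => rw [← Nat.mod_add_div n p]
  rw [Function.iterate_add_apply, Function.iterate_mul, Function.iterate_fixed (hp u)]

theorem iter_val_succ (φ : L ≃+ L) (hp : ∀ x : L, φ^[p] x = x) (m : ZMod p) (u : L) :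
    φ^[(m + 1).val] u = φ (φ^[m.val] u) := by
  rw [ZMod.val_add, ZMod.val_one, iter_mod φ hp, Function.iterate_succ_apply']

/-- the projections -/
noncomputable def ecomp (φ : L ≃+ L) (j : ZMod p) (u : L) : Conv p L :=
  fun k => ∑ m : ZMod p, if -(j * m) = k then φ^[m.val] u else 0

theorem ecomp_mem (φ : L ≃+ L) (hp : ∀ x : L, φ^[p] x = x) (j : ZMod p) (u : L) :
    ecomp φ j u ∈ Ecomp φ j := by
  intro k
  show φ (∑ m : ZMod p, if -(j * m) = k then φ^[m.val] u else 0)
    = ∑ m : ZMod p, if -(j * m) = k - j then φ^[m.val] u else 0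
  rw [map_sum]
  refine Fintype.sum_equiv (Equiv.addRight 1) _ _ (fun m => ?_)
  rw [Equiv.coe_addRight]
  by_cases h : -(j * m) = k
  · have h' : -(j * (m + 1)) = k - j := by rw [← h]; ring
    rw [if_pos h, if_pos h', iter_val_succ φ hp]
  · have h' : ¬ -(j * (m + 1)) = k - j := by
      intro h2
      apply h
      have : -(j * m) = -(j * (m + 1)) + j := by ring
      rw [this, h2]; ring
    rw [if_neg h, if_neg h', map_zero]

/-- the coefficients of `p - (1 + x + ... + x^(p-1))` -/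
def coef (k : ZMod p) : ℤ := (if k = 0 then (p : ℤ) else 0) - 1

/-- `u ↦ u ⊗ (p - (1 + x + ... + x^(p-1)))` -/
def iot (u : L) : Conv p L := fun k => coef k • u

theorem iot_apply (u : L) (k : ZMod p) : (iot u : Conv p L) k = coef k • u := rfl

theorem coef_conv (k : ZMod p) : ∑ i : ZMod p, coef i * coef (k - i) = p * coef k := by
  have h1 : ∀ i : ZMod p, coef i * coef (k - i)
      = (if i = 0 then (p : ℤ) * (if k = 0 then (p : ℤ) else 0) else 0)
        - (if i = 0 then (p : ℤ) else 0) - (if i = k then (p : ℤ) else 0) + 1 := by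
    intro i
    unfold coef
    have e : (k - i = 0) ↔ (i = k) := by rw [sub_eq_zero]; exact eq_comm
    by_cases hi : i = 0
    · subst hi
      simp only [sub_zero, if_true]
      by_cases hk : k = 0
      · simp [hk]; ring
      · simp [hk, Ne.symm hk]; ring
    · by_cases hik : i = k
      · subst hik
        simp [hi]; ring
      · have : ¬ (k - i = 0) := fun h => hik (e.mp h)
        simp [hi, hik, this]
  simp only [h1, Finset.sum_add_distrib, Finset.sum_sub_distrib, Finset.sum_ite_eq',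
    Finset.mem_univ, if_true, Finset.sum_const, Finset.card_univ, ZMod.card, nsmul_eq_mul, mul_one]
  unfold coef
  ring

theorem lie_iot (u v : L) :
    ⁅(iot u : Conv p L), (iot v : Conv p L)⁆ = p • (iot ⁅u, v⁆ : Conv p L) := by
  ext k
  rw [Conv.lie_apply, Conv.nsmul_apply]
  simp only [iot_apply, zsmul_lie, lie_zsmul, smul_smul]
  rw [← Finset.sum_smul, Finset.sum_congr rfl (fun i _ => mul_comm (coef (k - i)) (coef i)),
    coef_conv k, ← natCast_zsmul, smul_smul]

theorem sum_ecomp (φ : L ≃+ L) (u : L) (k : ZMod p) :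
    ∑ j : ZMod p, ecomp φ j u k = coef k • u + ∑ m : ZMod p, φ^[m.val] u := by
  show ∑ j : ZMod p, ∑ m : ZMod p, (if -(j * m) = k then φ^[m.val] u else 0) = _
  rw [Finset.sum_comm]
  have h1 : ∀ m : ZMod p, ∑ j : ZMod p, (if -(j * m) = k then φ^[m.val] u else 0)
      = φ^[m.val] u + (if m = 0 then coef k • u else 0) := by
    intro m
    by_cases hm : m = 0
    · subst hm
      simp only [mul_zero, neg_zero, ZMod.val_zero, Function.iterate_zero, id_eq, if_true,
        Finset.sum_const, Finset.card_univ, ZMod.card]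
      unfold coef
      by_cases hk : k = 0
      · rw [if_pos hk.symm, if_pos hk, sub_smul, one_smul, natCast_zsmul]; abel
      · rw [if_neg (Ne.symm hk), if_neg hk, smul_zero, zero_sub, neg_smul, one_smul]; abel
    · have e : ∀ j : ZMod p, (-(j * m) = k) ↔ (j = -k * m⁻¹) := by
        intro j
        constructor
        · intro h; rw [← h]; field_simp
        · intro h; rw [h]; field_simp
      simp only [e, Finset.sum_ite_eq', Finset.mem_univ, if_true, if_neg hm, add_zero]
  simp only [h1, Finset.sum_add_distrib, Finset.sum_ite_eq', Finset.mem_univ, if_true]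
  abel

theorem sigma_fixed (φ : L ≃+ L) (hp : ∀ x : L, φ^[p] x = x) (u : L) :
    φ (∑ m : ZMod p, φ^[m.val] u) = ∑ m : ZMod p, φ^[m.val] u := by
  rw [map_sum]
  refine Fintype.sum_equiv (Equiv.addRight 1) _ _ (fun m => ?_)
  rw [Equiv.coe_addRight, iter_val_succ φ hp]

theorem nsmul_iot_mem (φ : L ≃+ L) (hp : ∀ x : L, φ^[p] x = x) {N : ℕ}
    (hN : ∀ w : L, φ w = w → N • w = 0) (u : L) :
    N • (iot u : Conv p L) ∈ ⨆ j, Kfam (p := p) φ N j := by
  have h1 : N • (iot u : Conv p L) = ∑ j : ZMod p, N • ecomp φ j u := by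
    ext k
    rw [conv_sum_apply]
    simp only [Conv.nsmul_apply]
    rw [← Finset.smul_sum, sum_ecomp, smul_add, hN _ (sigma_fixed φ hp u), add_zero, iot_apply]
  rw [h1]
  refine sum_mem fun j _ => ?_
  by_cases hj : j = 0
  · subst hj
    rw [nsmul_eq_zero_of_mem_E0 hN (ecomp_mem φ hp 0 u)]
    exact zero_mem _
  · refine AddSubgroup.mem_iSup_of_mem j ?_
    rw [Kfam, if_neg hj]
    exact ⟨ecomp φ j u, ecomp_mem φ hp j u, rfl⟩

theorem lnb_iot (N : ℕ) (u : L) (l : List L) :
    lnb (N • (iot u : Conv p L)) (l.map fun y => N • (iot y : Conv p L))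
      = (N ^ (l.length + 1) * p ^ l.length) • (iot (lnb u l) : Conv p L) := by
  induction l using List.reverseRecOn with
  | nil => simp
  | append_singleton l y ih =>
    rw [List.map_append, List.map_singleton, lnb_concat, ih, lnb_concat, nsmul_lie, lie_nsmul,
      lie_iot, List.length_append, List.length_singleton, smul_smul, smul_smul]
    congr 1
    ring

/-- RUNG EXT -/
theorem ext {L : Type u} [LieRing L] (p : ℕ) [Fact p.Prime] (φ : L ≃+ L)
    (hφ : ∀ x y : L, φ ⁅x, y⁆ = ⁅φ x, φ y⁆) (hp : ∀ x : L, φ^[p] x = x) (N : ℕ)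
    (hN : ∀ w : L, φ w = w → N • w = 0) (c : ℕ) (hc : NilBound.{u} p c) (u : L) (l : List L)
    (hl : l.length = c) : (N ^ (c + 1) * p ^ c) • lnb u l = 0 := by
  have hK := isGr_Kfam (p := p) φ hφ hN
  have h0 := lnb_eq_zero_of_gam (Kfam (p := p) φ N) c (hc (Conv p L) _ hK)
    (N • (iot u : Conv p L)) (nsmul_iot_mem φ hp hN u)
    (l.map fun y => N • (iot y : Conv p L)) (by rw [List.length_map, hl]) (by
      intro y hy
      obtain ⟨z, -, rfl⟩ := List.mem_map.mp hy
      exact nsmul_iot_mem φ hp hN z)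
  rw [lnb_iot, hl] at h0
  have h1 := congrFun h0 (1 : ZMod p)
  have h2 : coef (1 : ZMod p) = -1 := by
    unfold coef
    rw [if_neg one_ne_zero, zero_sub]
  change (N ^ (c + 1) * p ^ c) • (coef (1 : ZMod p) • lnb u l) = 0 at h1
  rw [h2, neg_smul, one_smul, smul_neg, neg_eq_zero] at h1
  exact h1

end Cfsg.Agent.Lib.Helper41.HKK
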