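import Mathlib.Data.ZMod.Basic
import Mathlib.GroupTheory.Perm.Basic
import Mathlib.GroupTheory.OrderOfElement
import Mathlib.Algebra.BigOperators.Intervals
import Mathlib.Tactic.Ring
import Mathlib.Tactic.Abel

set_option autoImplicit false

namespace Cfsg.Agent.Lib.Helper41

section Model

variable (M N ρ T : ℕ)

/-- The generator `α` of the monomial model of a metacyclic group. -/
def mAlpha : Equiv.Perm (ZMod N × ZMod M) where
  toFun p := (p.1, p.2 + (ρ : ZMod M) ^ p.1.val)
  invFun p := (p.1, p.2 - (ρ : ZMod M) ^ p.1.val)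
  left_inv p := by simp
  right_inv p := by simp

/-- The generator `β` of the monomial model of a metacyclic group. -/
def mBeta : Equiv.Perm (ZMod N × ZMod M) where
  toFun p := (p.1 - 1, p.2 + if p.1 = 0 then (T : ZMod M) else 0)
  invFun p := (p.1 + 1, p.2 - if p.1 + 1 = 0 then (T : ZMod M) else 0)
  left_inv p := by simp
  right_inv p := by simp

lemma mAlpha_apply (p : ZMod N × ZMod M) :
    mAlpha M N ρ p = (p.1, p.2 + (ρ : ZMod M) ^ p.1.val) := rfl

lemma mBeta_apply (p : ZMod N × ZMod M) :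
    mBeta M N T p = (p.1 - 1, p.2 + if p.1 = 0 then (T : ZMod M) else 0) := rfl

lemma mAlpha_pow_apply (k : ℕ) (p : ZMod N × ZMod M) :
    (mAlpha M N ρ ^ k) p = (p.1, p.2 + k * (ρ : ZMod M) ^ p.1.val) := by
  induction k with
  | zero => simp
  | succ k ih =>
    rw [pow_succ', Equiv.Perm.mul_apply, ih, mAlpha_apply]
    ext
    · rfl
    · simp only [Nat.cast_add, Nat.cast_one]; ring

lemma mBeta_pow_apply (k : ℕ) (p : ZMod N × ZMod M) :
    (mBeta M N T ^ k) p = (p.1 - k, p.2 + ∑ j ∈ Finset.range k,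
      if p.1 - (j : ZMod N) = 0 then (T : ZMod M) else 0) := by
  induction k with
  | zero => simp
  | succ k ih =>
    rw [pow_succ', Equiv.Perm.mul_apply, ih, mBeta_apply, Finset.sum_range_succ]
    ext
    · simp only [Nat.cast_add, Nat.cast_one]; ring
    · simp only; ring

variable [NeZero M] [NeZero N]

lemma mAlpha_pow_eq_one_iff (k : ℕ) : mAlpha M N ρ ^ k = 1 ↔ M ∣ k := by
  constructor
  · intro h
    have h1 := mAlpha_pow_apply M N ρ k (0, 0)
    rw [h] at h1
    have h2 : (0 : ZMod M) = 0 + k * (ρ : ZMod M) ^ (0 : ZMod N).val := congrArg Prod.snd h1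
    rw [ZMod.val_zero, pow_zero, mul_one, zero_add] at h2
    exact (ZMod.natCast_eq_zero_iff k M).mp h2.symm
  · intro h
    ext p
    · rw [mAlpha_pow_apply]; rfl
    · rw [mAlpha_pow_apply, (ZMod.natCast_eq_zero_iff k M).mpr h]; simp

lemma orderOf_mAlpha : orderOf (mAlpha M N ρ) = M := by
  apply Nat.dvd_antisymm
  · exact orderOf_dvd_of_pow_eq_one ((mAlpha_pow_eq_one_iff M N ρ M).mpr dvd_rfl)
  · exact (mAlpha_pow_eq_one_iff M N ρ _).mp (pow_orderOf_eq_one _)

lemma mBeta_mul_mAlpha (h1 : ρ ^ N ≡ 1 [MOD M]) :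
    mBeta M N T * mAlpha M N ρ * (mBeta M N T)⁻¹ = mAlpha M N ρ ^ ρ := by
  rw [mul_inv_eq_iff_eq_mul]
  have hρ : (ρ : ZMod M) ^ N = 1 := by
    have := (ZMod.natCast_eq_natCast_iff _ _ _).mpr h1
    simpa using this
  ext p
  · simp [Equiv.Perm.mul_apply, mAlpha_pow_apply, mAlpha_apply, mBeta_apply]
  · simp only [Equiv.Perm.mul_apply, mAlpha_pow_apply, mAlpha_apply, mBeta_apply]
    have h2 : (ρ : ZMod M) ^ p.1.val = ρ * (ρ : ZMod M) ^ (p.1 - 1).val := by
      rw [← pow_succ', pow_eq_pow_mod p.1.val hρ, pow_eq_pow_mod ((p.1 - 1).val + 1) hρ]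
      congr 1
      apply (ZMod.natCast_eq_natCast_iff _ _ _).mp
      simp
    rw [h2]
    ring

lemma mBeta_pow (h2 : T * ρ ≡ T [MOD M]) : mBeta M N T ^ N = mAlpha M N ρ ^ T := by
  have hT : (T : ZMod M) * ρ = T := by
    have := (ZMod.natCast_eq_natCast_iff _ _ _).mpr h2
    simpa using this
  have hT' : ∀ e : ℕ, (T : ZMod M) * (ρ : ZMod M) ^ e = T := by
    intro e
    induction e with
    | zero => simp
    | succ e ih => rw [pow_succ', ← mul_assoc, hT, ih]
  ext p
  · rw [mBeta_pow_apply, mAlpha_pow_apply]; simp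
  · rw [mBeta_pow_apply, mAlpha_pow_apply, hT']
    congr 1
    rw [Finset.sum_eq_single_of_mem p.1.val (Finset.mem_range.mpr (ZMod.val_lt _))]
    · simp
    · intro j hj hne
      rw [if_neg]
      intro h
      apply hne
      rw [sub_eq_zero] at h
      rw [h, ZMod.val_natCast_of_lt (Finset.mem_range.mp hj)]

end Model

end Cfsg.Agent.Lib.Helper41
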