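import Cfsg.Agent.Lib.Helper41.SchurInvert

set_option autoImplicit false

namespace Cfsg.Agent.Lib.Helper41

open Subgroup
open scoped commutatorElement

universe u v w

/-- The central extension of `G₁ × G₂` by `T` defined by a bimultiplicative map. -/
@[ext] structure BiExt {G₁ : Type u} {G₂ : Type v} {T : Type w} [Group G₁] [Group G₂]
    [AddCommGroup T] (b : G₁ →* G₂ →* Multiplicative T) : Type (max u v w) where
  fst : G₁
  snd : G₂
  t : T

namespace BiExt

variable {G₁ : Type u} {G₂ : Type v} {T : Type w} [Group G₁] [Group G₂] [AddCommGroup T]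
  (b : G₁ →* G₂ →* Multiplicative T)

/-- additive version of the pairing -/
def β (g : G₁) (h : G₂) : T := Multiplicative.toAdd (b g h)

lemma β_mul_left (g g' : G₁) (h : G₂) : β b (g * g') h = β b g h + β b g' h := by
  simp [β]
lemma β_mul_right (g : G₁) (h h' : G₂) : β b g (h * h') = β b g h + β b g h' := by
  simp [β]
@[simp] lemma β_one_left (h : G₂) : β b 1 h = 0 := by simp [β]
@[simp] lemma β_one_right (g : G₁) : β b g 1 = 0 := by simp [β]
lemma β_inv_left (g : G₁) (h : G₂) : β b g⁻¹ h = - β b g h := by simp [β]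
lemma β_inv_right (g : G₁) (h : G₂) : β b g h⁻¹ = - β b g h := by simp [β]

variable {b}

instance instMulBiExt : Mul (BiExt b) :=
  ⟨fun p q => ⟨p.fst * q.fst, p.snd * q.snd, p.t + q.t + β b p.fst q.snd⟩⟩
instance instOneBiExt : One (BiExt b) := ⟨⟨1, 1, 0⟩⟩
instance instInvBiExt : Inv (BiExt b) :=
  ⟨fun p => ⟨p.fst⁻¹, p.snd⁻¹, -p.t + β b p.fst p.snd⟩⟩

@[simp] lemma mul_fst (p q : BiExt b) : (p * q).fst = p.fst * q.fst := rfl
@[simp] lemma mul_snd (p q : BiExt b) : (p * q).snd = p.snd * q.snd := rfl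
@[simp] lemma mul_t (p q : BiExt b) : (p * q).t = p.t + q.t + β b p.fst q.snd := rfl
@[simp] lemma one_fst : (1 : BiExt b).fst = 1 := rfl
@[simp] lemma one_snd : (1 : BiExt b).snd = 1 := rfl
@[simp] lemma one_t : (1 : BiExt b).t = 0 := rfl
@[simp] lemma inv_fst (p : BiExt b) : (p⁻¹).fst = p.fst⁻¹ := rfl
@[simp] lemma inv_snd (p : BiExt b) : (p⁻¹).snd = p.snd⁻¹ := rfl
@[simp] lemma inv_t (p : BiExt b) : (p⁻¹).t = -p.t + β b p.fst p.snd := rfl

instance instGroupBiExt : Group (BiExt b) :=
  Group.ofLeftAxioms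
    (fun p q s => by
      ext
      · simp [mul_assoc]
      · simp [mul_assoc]
      · simp only [mul_t, mul_fst, mul_snd, β_mul_left, β_mul_right]; abel)
    (fun p => by ext <;> simp)
    (fun p => by
      ext
      · simp
      · simp
      · simp only [mul_t, inv_t, inv_fst, one_t, β_inv_left]; abel)

instance instFiniteBiExt [Finite G₁] [Finite G₂] [Finite T] : Finite (BiExt b) :=
  Finite.of_injective (fun p : BiExt b => (p.fst, p.snd, p.t)) (fun p q h => by
    simp only [Prod.mk.injEq] at h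
    exact BiExt.ext h.1 h.2.1 h.2.2)

variable (b)

/-- projection to the product -/
def proj : BiExt b →* G₁ × G₂ where
  toFun p := (p.fst, p.snd)
  map_one' := rfl
  map_mul' _ _ := rfl

/-- left inclusion -/
def inl : G₁ →* BiExt b where
  toFun g := ⟨g, 1, 0⟩
  map_one' := rfl
  map_mul' g g' := by ext <;> simp

/-- right inclusion -/
def inr : G₂ →* BiExt b where
  toFun h := ⟨1, h, 0⟩
  map_one' := rfl
  map_mul' g g' := by ext <;> simp

/-- central inclusion -/
def inT : Multiplicative T →* BiExt b where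
  toFun t := ⟨1, 1, t.toAdd⟩
  map_one' := rfl
  map_mul' g g' := by ext <;> simp

lemma comm_inl_inr (g : G₁) (h : G₂) : ⁅inl b g, inr b h⁆ = inT b (b g h) := by
  rw [commutatorElement_def, mul_inv_eq_iff_eq_mul, mul_inv_eq_iff_eq_mul]
  ext <;> simp [inl, inr, inT, β]

lemma eq_mul_mul (p : BiExt b) :
    p = inl b p.fst * inr b p.snd * inT b (Multiplicative.ofAdd (p.t - β b p.fst p.snd)) := by
  ext <;> simp [inl, inr, inT]

end BiExt

end Cfsg.Agent.Lib.Helper41
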