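import Cfsg.Agent.Lib.Helper41.SchurUnique
import Cfsg.Agent.Lib.Helper41.SchurTransfer
import Mathlib.GroupTheory.Transfer
import Mathlib.GroupTheory.FreeGroup.NielsenSchreier

set_option autoImplicit false

namespace Cfsg.Agent.Lib.Helper41

open Subgroup
open scoped commutatorElement IsMulCommutative

universe u v w

section Cor

variable {F : Type*} [Group F] (R S : Subgroup F) [hRn : R.Normal] (hRS : R ≤ S)

/-- `[R, S]` as a subgroup of `S`. -/
def relS : Subgroup S := ⁅R.subgroupOf S, (⊤ : Subgroup S)⁆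

instance relS_normal : (relS R S).Normal := by
  unfold relS; infer_instance

/-- `S / [R, S]`. -/
abbrev SHat : Type _ := S ⧸ relS R S

lemma mk_mem_center_SHat (r : S) (hr : r.1 ∈ R) :
    (QuotientGroup.mk r : SHat R S) ∈ center (SHat R S) := by
  rw [mem_center_iff]
  intro y
  obtain ⟨s, rfl⟩ := QuotientGroup.mk_surjective y
  have h1 : ⁅r, s⁆ ∈ relS R S :=
    Subgroup.commutator_mem_commutator (mem_subgroupOf.mpr hr) (mem_top s)
  have h2 : (QuotientGroup.mk ⁅r, s⁆ : SHat R S) = 1 := (QuotientGroup.eq_one_iff _).mpr h1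
  rw [commutatorElement_def] at h2
  have h3 : (QuotientGroup.mk r : SHat R S) * QuotientGroup.mk s * (QuotientGroup.mk r)⁻¹ *
      (QuotientGroup.mk s)⁻¹ = 1 := h2
  rw [mul_inv_eq_one, mul_inv_eq_iff_eq_mul] at h3
  exact h3.symm

include hRS in
lemma conj_mem_S (t : F) (x : R) : t⁻¹ * x.1 * t ∈ S := hRS (hRn.conj_mem' x.1 x.2 t)

/-- `x ↦ t⁻¹ x t` modulo `[R, S]`, as a homomorphism to the centre of `S / [R, S]`. -/
def cHom (t : F) : R →* center (SHat R S) where
  toFun x := ⟨QuotientGroup.mk ⟨t⁻¹ * x.1 * t, conj_mem_S R S hRS t x⟩,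
    mk_mem_center_SHat R S _ (hRn.conj_mem' x.1 x.2 t)⟩
  map_one' := by
    apply Subtype.ext
    show (QuotientGroup.mk _ : SHat R S) = 1
    rw [QuotientGroup.eq_one_iff]
    convert one_mem (relS R S)
    simp
  map_mul' x y := by
    apply Subtype.ext
    show (QuotientGroup.mk _ : SHat R S) = QuotientGroup.mk _ * QuotientGroup.mk _
    rw [← QuotientGroup.mk_mul]
    congr 1
    apply Subtype.ext
    simp only [Subgroup.coe_mul]
    group

lemma cHom_mul_right (t : F) (s : S) : cHom R S hRS (t * s.1) = cHom R S hRS t := by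
  refine MonoidHom.ext fun x => ?_
  apply Subtype.ext
  show (QuotientGroup.mk _ : SHat R S) = QuotientGroup.mk _
  have h1 : (⟨(t * s.1)⁻¹ * x.1 * (t * s.1), conj_mem_S R S hRS (t * s.1) x⟩ : S) =
      s⁻¹ * ⟨t⁻¹ * x.1 * t, conj_mem_S R S hRS t x⟩ * s := by
    apply Subtype.ext
    simp only [Subgroup.coe_mul, Subgroup.coe_inv]
    group
  rw [h1, QuotientGroup.mk_mul, QuotientGroup.mk_mul, QuotientGroup.mk_inv]
  have hc := mem_center_iff.mp (mk_mem_center_SHat R S ⟨t⁻¹ * x.1 * t, conj_mem_S R S hRS t x⟩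
    (hRn.conj_mem' x.1 x.2 t)) (QuotientGroup.mk s)
  rw [mul_assoc, ← hc, inv_mul_cancel_left]

lemma cHom_eq_of_mk_eq {t t' : F} (h : (QuotientGroup.mk t : F ⧸ S) = QuotientGroup.mk t') :
    cHom R S hRS t = cHom R S hRS t' := by
  have hs : t⁻¹ * t' ∈ S := QuotientGroup.eq.mp h
  have := cHom_mul_right R S hRS t ⟨t⁻¹ * t', hs⟩
  rw [← this]
  congr 1
  simp

lemma cHom_conj (t g : F) (x : R) :
    cHom R S hRS t ⟨g * x.1 * g⁻¹, hRn.conj_mem x.1 x.2 g⟩ = cHom R S hRS (g⁻¹ * t) x := by
  apply Subtype.ext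
  show (QuotientGroup.mk _ : SHat R S) = QuotientGroup.mk _
  congr 1
  apply Subtype.ext
  show t⁻¹ * (g * x.1 * g⁻¹) * t = (g⁻¹ * t)⁻¹ * x.1 * (g⁻¹ * t)
  group

variable [S.FiniteIndex]

/-- The transfer `R → Z(S / [R, S])`, `x ↦ ∏ t⁻¹ x t`. -/
noncomputable def trHom : R →* center (SHat R S) :=
  letI := S.fintypeQuotientOfFiniteIndex
  ∏ q : F ⧸ S, cHom R S hRS q.out

lemma trHom_apply (x : R) :
    letI := S.fintypeQuotientOfFiniteIndex
    trHom R S hRS x = ∏ q : F ⧸ S, cHom R S hRS q.out x := by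
  unfold trHom
  rw [MonoidHom.finsetProd_apply]

lemma trHom_conj (g : F) (x : R) :
    trHom R S hRS ⟨g * x.1 * g⁻¹, hRn.conj_mem x.1 x.2 g⟩ = trHom R S hRS x := by
  let _ := S.fintypeQuotientOfFiniteIndex
  rw [trHom_apply, trHom_apply]
  rw [← Equiv.prod_comp (MulAction.toPerm g⁻¹ : Equiv.Perm (F ⧸ S))
    (fun q => cHom R S hRS q.out x)]
  apply Finset.prod_congr rfl
  intro q _
  rw [cHom_conj]
  congr 1
  apply cHom_eq_of_mk_eq
  show (QuotientGroup.mk (g⁻¹ * q.out) : F ⧸ S) = QuotientGroup.mk (g⁻¹ • q).out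
  rw [QuotientGroup.out_eq']
  conv_rhs => rw [← QuotientGroup.out_eq' q]
  rfl

lemma trHom_eq_one_of_mem (x : R) (hx : x.1 ∈ ⁅R, (⊤ : Subgroup F)⁆) : trHom R S hRS x = 1 := by
  have hle : ⁅R, (⊤ : Subgroup F)⁆ ≤ (trHom R S hRS).ker.map R.subtype := by
    rw [Subgroup.commutator_le]
    intro r hr g _
    refine ⟨⟨r, hr⟩ * ⟨g * (⟨r, hr⟩ : R)⁻¹.1 * g⁻¹, hRn.conj_mem _ (⟨r, hr⟩ : R)⁻¹.2 g⟩, ?_, ?_⟩
    · show trHom R S hRS _ = 1
      rw [map_mul, trHom_conj, map_inv, mul_inv_cancel]
    · show r * (g * r⁻¹ * g⁻¹) = ⁅r, g⁆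
      rw [commutatorElement_def]
      group
  obtain ⟨y, hy, hyx⟩ := hle hx
  have : y = x := Subtype.ext hyx
  rw [← this]
  exact hy

lemma map_prod_const {Z E ι : Type*} [CommGroup Z] [Group E] (h : Z →* E) (s : Finset ι)
    (f : ι → Z) (e : E) (hf : ∀ q ∈ s, h (f q) = e) : h (∏ q ∈ s, f q) = e ^ s.card := by
  classical
  induction s using Finset.induction_on with
  | empty => simp
  | insert a s ha ih =>
    rw [Finset.prod_insert ha, map_mul, hf a (Finset.mem_insert_self a s),
      ih (fun q hq => hf q (Finset.mem_insert_of_mem hq)), Finset.card_insert_of_notMem ha,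
      pow_succ']

omit [S.FiniteIndex] in
lemma relS_le_ker_cor : ∀ x ∈ relS R S,
    ((QuotientGroup.mk' ⁅R, (⊤ : Subgroup F)⁆).comp S.subtype) x = 1 := by
  have : relS R S ≤ ((QuotientGroup.mk' ⁅R, (⊤ : Subgroup F)⁆).comp S.subtype).ker := by
    unfold relS
    rw [Subgroup.commutator_le]
    intro r hr s _
    rw [MonoidHom.mem_ker]
    show (QuotientGroup.mk (⁅r, s⁆ : S).1 : F ⧸ ⁅R, (⊤ : Subgroup F)⁆) = 1
    rw [QuotientGroup.eq_one_iff]
    exact Subgroup.commutator_mem_commutator (mem_subgroupOf.mp hr) (mem_top _)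
  exact this

/-- The corestriction `S / [R, S] → F / [R, F]`. -/
def corHom : SHat R S →* F ⧸ ⁅R, (⊤ : Subgroup F)⁆ :=
  QuotientGroup.lift (relS R S) ((QuotientGroup.mk' ⁅R, (⊤ : Subgroup F)⁆).comp S.subtype)
    (relS_le_ker_cor R S)

omit [S.FiniteIndex] in
lemma corHom_cHom (t : F) (x : R) :
    corHom R S (cHom R S hRS t x).1 = QuotientGroup.mk x.1 := by
  show (QuotientGroup.mk (t⁻¹ * x.1 * t) : F ⧸ ⁅R, (⊤ : Subgroup F)⁆) = QuotientGroup.mk x.1
  rw [eq_comm, QuotientGroup.eq]
  have : x.1⁻¹ * (t⁻¹ * x.1 * t) = ⁅x.1⁻¹, t⁻¹⁆ := by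
    rw [commutatorElement_def]; group
  rw [this]
  exact Subgroup.commutator_mem_commutator (inv_mem x.2) (mem_top _)

lemma corHom_trHom (x : R) :
    corHom R S (trHom R S hRS x).1 = (QuotientGroup.mk x.1) ^ S.index := by
  let _ := S.fintypeQuotientOfFiniteIndex
  rw [trHom_apply]
  have := map_prod_const ((corHom R S).comp (center (SHat R S)).subtype) Finset.univ
    (fun q : F ⧸ S => cHom R S hRS q.out x) (QuotientGroup.mk x.1)
    (fun q _ => corHom_cHom R S hRS q.out x)
  rw [Finset.card_univ, ← Nat.card_eq_fintype_card] at this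
  exact this

/-- The map `S / [R, S] → Sᵃᵇ`. -/
def nuHom : SHat R S →* Abelianization S :=
  QuotientGroup.lift (relS R S) Abelianization.of (fun x hx => by
    have : x ∈ (Abelianization.of : S →* Abelianization S).ker := by
      rw [Abelianization.ker_of]
      exact Subgroup.commutator_mono le_top le_rfl hx
    exact this)

omit hRn [S.FiniteIndex] in
lemma mem_commutator_of_nuHom [R.Normal] (w : SHat R S) (hw : nuHom R S w = 1) :
    w ∈ commutator (SHat R S) := by
  obtain ⟨s, rfl⟩ := QuotientGroup.mk_surjective w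
  have hs : s ∈ commutator S := by
    rw [← Abelianization.ker_of]
    exact hw
  exact map_mem_commutator (QuotientGroup.mk' (relS R S)) hs

lemma nuHom_trHom (x : R) :
    nuHom R S (trHom R S hRS x).1 =
      MonoidHom.transfer (Abelianization.of : S →* Abelianization S) x.1 := by
  let _ := S.fintypeQuotientOfFiniteIndex
  rw [trHom_apply, MonoidHom.transfer_def _ (default : S.LeftTransversal)]
  unfold Subgroup.leftTransversals.diff
  have h1 : nuHom R S (∏ q : F ⧸ S, cHom R S hRS q.out x : center (SHat R S)).1 =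
      ∏ q : F ⧸ S, nuHom R S (cHom R S hRS q.out x).1 :=
    map_prod ((nuHom R S).comp (center (SHat R S)).subtype) _ _
  rw [h1]
  apply Finset.prod_congr rfl
  intro q _
  have hq : (QuotientGroup.mk
      (((default : S.LeftTransversal).2.leftQuotientEquiv q : F)) : F ⧸ S) = q :=
    Subgroup.IsComplement.quotientGroupMk_leftQuotientEquiv _ q
  have h2 : cHom R S hRS q.out = cHom R S hRS
      ((default : S.LeftTransversal).2.leftQuotientEquiv q : F) := by
    apply cHom_eq_of_mk_eq
    rw [hq, QuotientGroup.out_eq']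
  rw [h2]
  show Abelianization.of _ = Abelianization.of _
  congr 1
  apply Subtype.ext
  have hfix : x.1⁻¹ • q = q := by
    obtain ⟨t, rfl⟩ := QuotientGroup.mk_surjective q
    show (QuotientGroup.mk (x.1⁻¹ * t) : F ⧸ S) = QuotientGroup.mk t
    rw [eq_comm, QuotientGroup.eq]
    have := conj_mem_S R S hRS t x⁻¹
    simpa [mul_assoc] using this
  show ((default : S.LeftTransversal).2.leftQuotientEquiv q : F)⁻¹ * x.1 *
      ((default : S.LeftTransversal).2.leftQuotientEquiv q : F) =
    ((default : S.LeftTransversal).2.leftQuotientEquiv q : F)⁻¹ *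
      ((x.1 • (default : S.LeftTransversal)).2.leftQuotientEquiv q : F)
  rw [Subgroup.smul_apply_eq_smul_apply_inv_smul, hfix]
  simp [mul_assoc]

lemma trHom_mem_commutator (x : R) (hx : x.1 ∈ commutator F) :
    (trHom R S hRS x).1 ∈ commutator (SHat R S) := by
  apply mem_commutator_of_nuHom
  rw [nuHom_trHom]
  exact Abelianization.commutator_subset_ker _ hx

end Cor

section Apply

variable {G : Type u} [Group G] (U : Subgroup G) {X : Type w} (π : FreeGroup X →* G)

lemma ker_le_comap : π.ker ≤ U.comap π := fun x hx => by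
  rw [mem_comap, MonoidHom.mem_ker.mp hx]; exact one_mem U

/-- The projection `S / [R, S] → U`. -/
def tauHat : SHat π.ker (U.comap π) →* U :=
  QuotientGroup.lift (relS π.ker (U.comap π)) (π.subgroupComap U) (by
    have : relS π.ker (U.comap π) ≤ (π.subgroupComap U).ker := by
      unfold relS
      rw [Subgroup.commutator_le]
      intro r hr s _
      rw [MonoidHom.mem_ker, map_commutatorElement]
      have : π.subgroupComap U r = 1 := Subtype.ext (mem_subgroupOf.mp hr)
      rw [this]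
      simp
    exact this)

lemma tauHat_mk (s : U.comap π) : (tauHat U π (QuotientGroup.mk s)).1 = π s.1 := rfl

lemma tauHat_surjective (hπ : Function.Surjective π) : Function.Surjective (tauHat U π) := by
  intro u
  obtain ⟨f, hf⟩ := hπ u.1
  exact ⟨QuotientGroup.mk ⟨f, by rw [mem_comap, hf]; exact u.2⟩, Subtype.ext hf⟩

lemma ker_tauHat_le_center : (tauHat U π).ker ≤ center (SHat π.ker (U.comap π)) := by
  intro w hw
  obtain ⟨s, rfl⟩ := QuotientGroup.mk_surjective w
  apply mk_mem_center_SHat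
  exact congrArg Subtype.val hw

/-- Free subgroups: `S / [R, S]` maps onto every stem extension of `U`. -/
lemma exists_lift_SHat {Δ : Type v} [Group Δ] (τ : Δ →* U) (hτ : Function.Surjective τ)
    (hc : τ.ker ≤ center Δ) :
    ∃ f : SHat π.ker (U.comap π) →* Δ, τ.comp f = tauHat U π := by
  choose d hd using fun a : IsFreeGroup.Generators (U.comap π) =>
    hτ (π.subgroupComap U (IsFreeGroup.of a))
  let f₀ : U.comap π →* Δ := IsFreeGroup.lift d
  have h0 : τ.comp f₀ = π.subgroupComap U := by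
    apply IsFreeGroup.ext_hom
    intro a
    show τ (IsFreeGroup.lift d (IsFreeGroup.of a)) = _
    rw [IsFreeGroup.lift_of, hd]
  have hk : relS π.ker (U.comap π) ≤ f₀.ker := by
    unfold relS
    rw [Subgroup.commutator_le]
    intro r hr g _
    rw [MonoidHom.mem_ker, map_commutatorElement, commutatorElement_eq_one_iff_mul_comm]
    have : f₀ r ∈ τ.ker := by
      rw [MonoidHom.mem_ker, ← MonoidHom.comp_apply, h0]
      exact Subtype.ext (mem_subgroupOf.mp hr)
    exact (mem_center_iff.mp (hc this) (f₀ g)).symm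
  refine ⟨QuotientGroup.lift _ f₀ hk, ?_⟩
  refine MonoidHom.ext fun w => ?_
  obtain ⟨s, rfl⟩ := QuotientGroup.mk_surjective w
  exact DFunLike.congr_fun h0 s

/-- Hopf's formula for the subgroup `U` relative to the presentation of `G`. -/
theorem hsm_equiv_SHat {B : Type*} [CommGroup B] (hB : HasSchurMultiplier U B)
    (hπ : Function.Surjective π) :
    Nonempty (B ≃* ((tauHat U π).ker ⊓ commutator (SHat π.ker (U.comap π)) :
      Subgroup (SHat π.ker (U.comap π)))) := by
  obtain ⟨φ, hφ⟩ := hsm_surj_of_central hB (tauHat U π) (tauHat_surjective U π hπ)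
    (ker_tauHat_le_center U π)
  have hBf := hsm_finite hB
  have hMf : Finite ((tauHat U π).ker ⊓ commutator (SHat π.ker (U.comap π)) :
      Subgroup (SHat π.ker (U.comap π))) := Finite.of_surjective φ hφ
  obtain ⟨⟨Δ, _, _, τ, hτ, ⟨e⟩⟩, -⟩ := hB
  obtain ⟨f, hf⟩ := exists_lift_SHat U π τ hτ.1 hτ.2.1
  have hf' : ∀ w, τ (f w) = tauHat U π w := fun w => DFunLike.congr_fun hf w
  have hfs := surjective_of_stem_over (tauHat U π) τ (tauHat_surjective U π hπ) hτ f hf
  let g : ((tauHat U π).ker ⊓ commutator (SHat π.ker (U.comap π)) :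
      Subgroup (SHat π.ker (U.comap π))) →* τ.ker :=
    (f.comp (Subgroup.subtype _)).codRestrict τ.ker (fun w => by
      rw [MonoidHom.mem_ker]
      show τ (f w.1) = 1
      rw [hf']
      exact w.2.1)
  have hg : Function.Surjective g := by
    intro k
    obtain ⟨w, hw, hwk⟩ := exists_mem_commutator_of_surjective f hfs (hτ.2.2 k.2)
    refine ⟨⟨w, ?_, hw⟩, Subtype.ext hwk⟩
    show tauHat U π w = 1
    rw [← hf', hwk]
    exact k.2
  have hcard : Nat.card B ≤ Nat.card ((tauHat U π).ker ⊓ commutator (SHat π.ker (U.comap π)) :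
      Subgroup (SHat π.ker (U.comap π))) := by
    rw [← Nat.card_congr e.toEquiv]
    exact Nat.card_le_card_of_surjective g hg
  exact ⟨MulEquiv.ofBijective φ (hφ.bijective_of_nat_card_le hcard)⟩

lemma tauHat_cHom (t : FreeGroup X) (x : π.ker) :
    tauHat U π (cHom π.ker (U.comap π) (ker_le_comap U π) t x).1 = 1 := by
  apply Subtype.ext
  show π (t⁻¹ * x.1 * t) = 1
  rw [map_mul, map_mul, MonoidHom.mem_ker.mp x.2]
  simp

lemma tauHat_trHom [(U.comap π).FiniteIndex] (x : π.ker) :
    tauHat U π (trHom π.ker (U.comap π) (ker_le_comap U π) x).1 = 1 := by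
  let _ := (U.comap π).fintypeQuotientOfFiniteIndex
  rw [trHom_apply]
  have := map_prod_const ((tauHat U π).comp (center (SHat π.ker (U.comap π))).subtype) Finset.univ
    (fun q : FreeGroup X ⧸ (U.comap π) => cHom π.ker (U.comap π) (ker_le_comap U π) q.out x) 1
    (fun q _ => tauHat_cHom U π q.out x)
  rw [one_pow] at this
  exact this

/-- Corestriction and transfer between the multipliers of `G` and of a subgroup `U`. -/
theorem exists_cor_tr [Finite G] {A : Type*} {B : Type*} [CommGroup A] [CommGroup B]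
    (hA : HasSchurMultiplier G A) (hB : HasSchurMultiplier U B) :
    ∃ (cor : B →* A) (tr : A →* B), ∀ a, cor (tr a) = a ^ U.index := by
  set π := canPres G with hπdef
  have hπ : Function.Surjective π := canPres_surjective G
  have hidx : (U.comap π).index = U.index := Subgroup.index_comap_of_surjective U hπ
  have hfi : (U.comap π).FiniteIndex := ⟨by rw [hidx]; exact U.index_ne_zero_of_finite⟩
  obtain ⟨eA⟩ := hsm_equiv_mult hA π hπ
  obtain ⟨ψ⟩ := hsm_equiv_SHat U π hB hπ
  let cor₀ : SHat π.ker (U.comap π) →* CE π := corHom π.ker (U.comap π)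
  have hcor₀ : ∀ w, ceProj π (cor₀ w) = (tauHat U π w).1 := by
    intro w
    obtain ⟨s, rfl⟩ := QuotientGroup.mk_surjective w
    rfl
  let cor' : ((tauHat U π).ker ⊓ commutator (SHat π.ker (U.comap π)) :
      Subgroup (SHat π.ker (U.comap π))) →* mult π :=
    (cor₀.comp (Subgroup.subtype _)).codRestrict (mult π) (fun w => by
      refine ⟨?_, map_mem_commutator cor₀ w.2.2⟩
      show ceProj π (cor₀ w.1) = 1
      rw [hcor₀, MonoidHom.mem_ker.mp w.2.1]
      rfl)
  let R₁ : Subgroup π.ker := (commutator (FreeGroup G)).subgroupOf π.ker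
  let μ : R₁ →* mult π :=
    (((QuotientGroup.mk' (relComm π)).comp π.ker.subtype).comp R₁.subtype).codRestrict (mult π)
      (fun x => ⟨x.1.2, map_mem_commutator (QuotientGroup.mk' (relComm π)) (mem_subgroupOf.mp x.2)⟩)
  have hμ : Function.Surjective μ := by
    rintro ⟨e, he1, he2⟩
    obtain ⟨f, rfl⟩ := QuotientGroup.mk_surjective e
    have hf1 : f ∈ π.ker := he1
    have hf2 : f ∈ commutator (FreeGroup G) := by
      rw [← ker_ceAb] at he2
      rw [← ker_fgAb]
      exact he2
    exact ⟨⟨⟨f, hf1⟩, mem_subgroupOf.mpr hf2⟩, rfl⟩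
  let T₁ : R₁ →* ((tauHat U π).ker ⊓ commutator (SHat π.ker (U.comap π)) :
      Subgroup (SHat π.ker (U.comap π))) :=
    (((center (SHat π.ker (U.comap π))).subtype.comp
      (trHom π.ker (U.comap π) (ker_le_comap U π))).comp R₁.subtype).codRestrict _
      (fun x => ⟨tauHat_trHom U π x.1,
        trHom_mem_commutator π.ker (U.comap π) (ker_le_comap U π) x.1 (mem_subgroupOf.mp x.2)⟩)
  have hker : μ.ker ≤ T₁.ker := by
    intro x hx
    have h1 : (QuotientGroup.mk x.1.1 : CE π) = 1 := congrArg Subtype.val hx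
    rw [QuotientGroup.eq_one_iff] at h1
    have h2 := trHom_eq_one_of_mem π.ker (U.comap π) (ker_le_comap U π) x.1 h1
    apply Subtype.ext
    show (trHom π.ker (U.comap π) (ker_le_comap U π) x.1).1 = 1
    rw [h2]
    rfl
  let tr' : mult π →* ((tauHat U π).ker ⊓ commutator (SHat π.ker (U.comap π)) :
      Subgroup (SHat π.ker (U.comap π))) := μ.liftOfSurjective hμ ⟨T₁, hker⟩
  have htr : ∀ m, cor' (tr' m) = m ^ U.index := by
    intro m
    obtain ⟨x, rfl⟩ := hμ m
    have h1 : tr' (μ x) = T₁ x := MonoidHom.liftOfRightInverse_comp_apply _ _ _ _ _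
    rw [h1]
    apply Subtype.ext
    show cor₀ (trHom π.ker (U.comap π) (ker_le_comap U π) x.1).1 = ((μ x) ^ U.index : mult π).1
    have h2 := corHom_trHom π.ker (U.comap π) (ker_le_comap U π) x.1
    rw [hidx] at h2
    rw [Subgroup.coe_pow]
    exact h2
  refine ⟨(eA.symm.toMonoidHom.comp cor').comp ψ.toMonoidHom,
    (ψ.symm.toMonoidHom.comp tr').comp eA.toMonoidHom, ?_⟩
  intro a
  show eA.symm (cor' (ψ (ψ.symm (tr' (eA a))))) = a ^ U.index
  rw [MulEquiv.apply_symm_apply, htr, map_pow, MulEquiv.symm_apply_apply]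

end Apply

end Cfsg.Agent.Lib.Helper41
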