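import Cfsg.Agent.Lib.Helper41.SchurInvert

set_option autoImplicit false

namespace Cfsg.Agent.Lib.Helper41

open Subgroup
open scoped commutatorElement

universe u v w

lemma hasCyclicSchurMultiplier_one_of_card_le {G : Type u} [Group G] [Finite G]
    (h : ∀ (Γ : Type u) [Group Γ] [Finite Γ] (σ : Γ →* G), IsStemExtension σ →
      Nat.card σ.ker ≤ 1) : HasCyclicSchurMultiplier G 1 := by
  have h1 : Subsingleton (MonoidHom.id G).ker := ⟨fun a b => Subtype.ext (a.2.trans b.2.symm)⟩
  have h2 : Unique (MonoidHom.id G).ker := ⟨⟨1⟩, fun a => Subsingleton.elim _ _⟩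
  refine hasSchurMultiplier_of_card_le G (MonoidHom.id G) ⟨fun g => ⟨g, rfl⟩, ?_, ?_⟩
    MulEquiv.ofUnique ?_
  · intro x hx
    have : x = 1 := hx
    rw [this]; exact one_mem _
  · intro x hx
    have : x = 1 := hx
    rw [this]; exact one_mem _
  · intro Γ _ _ σ hσ
    simpa using h Γ σ hσ

section Dihedral

open DihedralGroup

lemma dihedral_closure (n : ℕ) [NeZero n] :
    closure ({r 1, sr 0} : Set (DihedralGroup n)) = ⊤ := by
  rw [eq_top_iff]
  intro x _
  have h1 : (r 1 : DihedralGroup n) ∈ closure ({r 1, sr 0} : Set (DihedralGroup n)) :=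
    subset_closure (by simp)
  have h2 : (sr 0 : DihedralGroup n) ∈ closure ({r 1, sr 0} : Set (DihedralGroup n)) :=
    subset_closure (by simp)
  have h3 : ∀ i : ZMod n, (r i : DihedralGroup n) ∈
      closure ({r 1, sr 0} : Set (DihedralGroup n)) := by
    intro i
    have : (r i : DihedralGroup n) = (r 1) ^ i.val := by
      rw [r_one_pow, ZMod.natCast_zmod_val]
    rw [this]; exact pow_mem h1 _
  cases x with
  | r i => exact h3 i
  | sr i =>
    have : (sr i : DihedralGroup n) = sr 0 * r i := by simp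
    rw [this]; exact mul_mem h2 (h3 i)

theorem dihedral_stem_card_le (n : ℕ) [NeZero n] (o d : ℕ) (hod : n = o * d) (hd : 0 < d)
    (ho : ∀ k : ℤ, (n : ℤ) ∣ 2 * k → (o : ℤ) ∣ k) {Γ : Type*} [Group Γ] [Finite Γ]
    (σ : Γ →* DihedralGroup n) (hσ : IsStemExtension σ) : Nat.card σ.ker ≤ d := by
  obtain ⟨a, ha⟩ := hσ.1 (r 1)
  obtain ⟨b, hb⟩ := hσ.1 (sr 0)
  apply stem_invert_card σ hσ a b (by rw [ha, hb]; exact dihedral_closure n) _ o d hd
  · rw [← hod]
    have : a ^ n ∈ center Γ := by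
      apply hσ.2.1
      rw [MonoidHom.mem_ker, map_pow, ha, r_one_pow_n]
    exact (mem_center_iff.mp this b)
  · intro k hk
    apply ho
    rw [ha, ← orderOf_dvd_iff_zpow_eq_one, orderOf_r_one] at hk
    exact hk
  · rw [ha, hb]; simp

end Dihedral

section Quaternion

open QuaternionGroup

lemma quaternion_closure (n : ℕ) [NeZero n] :
    closure ({a 1, xa 0} : Set (QuaternionGroup n)) = ⊤ := by
  rw [eq_top_iff]
  intro x _
  have h1 : (a 1 : QuaternionGroup n) ∈ closure ({a 1, xa 0} : Set (QuaternionGroup n)) :=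
    subset_closure (by simp)
  have h2 : (xa 0 : QuaternionGroup n) ∈ closure ({a 1, xa 0} : Set (QuaternionGroup n)) :=
    subset_closure (by simp)
  have h3 : ∀ i : ZMod (2 * n), (a i : QuaternionGroup n) ∈
      closure ({a 1, xa 0} : Set (QuaternionGroup n)) := by
    intro i
    have : (a i : QuaternionGroup n) = (a 1) ^ i.val := by
      rw [a_one_pow, ZMod.natCast_zmod_val]
    rw [this]; exact pow_mem h1 _
  cases x with
  | a i => exact h3 i
  | xa i =>
    have : (xa i : QuaternionGroup n) = xa 0 * a i := by simp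
    rw [this]; exact mul_mem h2 (h3 i)

lemma quaternion_inv_a (n : ℕ) (i : ZMod (2 * n)) : (a i : QuaternionGroup n)⁻¹ = a (-i) := by
  apply inv_eq_of_mul_eq_one_right
  simp

theorem quaternion_stem_card_le (n : ℕ) [NeZero n] {Γ : Type*} [Group Γ] [Finite Γ]
    (σ : Γ →* QuaternionGroup n) (hσ : IsStemExtension σ) : Nat.card σ.ker ≤ 1 := by
  obtain ⟨x, hx⟩ := hσ.1 (a 1)
  obtain ⟨y, hy⟩ := hσ.1 (xa 0)
  apply stem_invert_card σ hσ x y (by rw [hx, hy]; exact quaternion_closure n) _ n 1 one_pos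
  · rw [mul_one]
    have hw : (y ^ 2)⁻¹ * x ^ n ∈ center Γ := by
      apply hσ.2.1
      rw [MonoidHom.mem_ker, map_mul, map_inv, map_pow, map_pow, hx, hy, xa_sq, a_one_pow,
        inv_mul_cancel]
    have h1 : x ^ n = y ^ 2 * ((y ^ 2)⁻¹ * x ^ n) := by group
    rw [h1]
    exact ((Commute.refl y).pow_right 2).mul_right (mem_center_iff.mp hw y)
  · intro k hk
    rw [hx, ← orderOf_dvd_iff_zpow_eq_one, orderOf_a_one] at hk
    push_cast at hk
    exact (mul_dvd_mul_iff_left (by norm_num)).mp hk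
  · rw [hx, hy, mul_inv_eq_iff_eq_mul, quaternion_inv_a]
    simp

end Quaternion

end Cfsg.Agent.Lib.Helper41
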