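import Cfsg.Agent.Lib.Helper41.SchurCor
import Mathlib.GroupTheory.Torsion
import Mathlib.GroupTheory.PGroup
import Mathlib.GroupTheory.Sylow

set_option autoImplicit false

namespace Cfsg.Agent.Lib.Helper41

open Subgroup
open scoped commutatorElement

universe u v w

/-- The exponent of the multiplier divides the group order. -/
lemma hsm_pow_card {Q : Type u} [Group Q] {B : Type v} [CommGroup B]
    (hB : HasSchurMultiplier Q B) (b : B) : b ^ Nat.card Q = 1 := by
  obtain ⟨⟨Δ, _, _, τ, hτ, ⟨e⟩⟩, -⟩ := hB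
  obtain ⟨z, rfl⟩ := e.surjective b
  rw [← map_pow]
  have hidx : τ.ker.index = Nat.card Q := by
    rw [Subgroup.index_ker, MonoidHom.range_eq_top.mpr hτ.1, Nat.card_congr Subgroup.topEquiv.toEquiv]
  obtain ⟨h, hmem⟩ := pow_index_mem_commutator τ.ker z.1 (hτ.2.1 z.2) (hτ.2.2 z.2)
  let _ : CommGroup τ.ker :=
    { (inferInstance : Group τ.ker) with
      mul_comm := fun a c => Subtype.ext (by
        have := mem_center_iff.mp (hτ.2.1 a.2) c
        simpa using this.symm) }
  have h1 : (⟨z.1 ^ τ.ker.index, h⟩ : τ.ker) = 1 :=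
    Abelianization.commutator_subset_ker (MonoidHom.id τ.ker) hmem
  have h2 : z ^ Nat.card Q = 1 := by
    apply Subtype.ext
    rw [← hidx]
    exact congrArg Subtype.val h1
  rw [h2, map_one]

/-- Splitting off the `p`-primary component by corestriction and transfer. -/
lemma exists_direct_factor {A B : Type*} [CommGroup A] [CommGroup B] (p : ℕ) [Fact p.Prime]
    (m k : ℕ) (hm : Nat.Coprime p m) (hBp : ∀ b : B, b ^ (p ^ k) = 1) (cor : B →* A) (tr : A →* B)
    (h : ∀ a, cor (tr a) = a ^ m) :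
    ∃ C D : Subgroup B, C ⊓ D = ⊥ ∧ C ⊔ D = ⊤ ∧
      Nonempty (CommGroup.primaryComponent A p ≃* C) := by
  have hAp : IsPGroup p (CommGroup.primaryComponent A p) := CommGroup.primaryComponent.isPGroup
  have hinj0 : ∀ a : CommGroup.primaryComponent A p, a.1 ^ m = 1 → a = 1 := by
    intro a ha
    apply (hAp.powEquiv hm).injective
    apply Subtype.ext
    simpa using ha
  let t := tr.comp (CommGroup.primaryComponent A p).subtype
  have ht : Function.Injective t := by
    rw [injective_iff_map_eq_one]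
    intro a ha
    apply hinj0
    have : tr a.1 = 1 := ha
    rw [← h, this, map_one]
  refine ⟨t.range, cor.ker, ?_, ?_, ⟨MonoidHom.ofInjective ht⟩⟩
  · rw [eq_bot_iff]
    rintro _ ⟨⟨a, rfl⟩, ha⟩
    have h1 : cor (tr a.1) = 1 := ha
    rw [h] at h1
    rw [hinj0 a h1, map_one]
    exact one_mem _
  · rw [eq_top_iff]
    intro y _
    have hy : cor y ∈ CommGroup.primaryComponent A p := by
      rw [CommGroup.mem_primaryComponent]
      exact ⟨k, by rw [← map_pow, hBp, map_one]⟩
    obtain ⟨a₁, ha₁⟩ := (hAp.powEquiv hm).surjective ⟨cor y, hy⟩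
    have ha₁' : a₁.1 ^ m = cor y := congrArg Subtype.val ha₁
    have : y = t a₁ * ((t a₁)⁻¹ * y) := by group
    rw [this]
    refine Subgroup.mul_mem_sup ⟨a₁, rfl⟩ ?_
    rw [MonoidHom.mem_ker, map_mul, map_inv]
    show (cor (tr a₁.1))⁻¹ * cor y = 1
    rw [h, ha₁', inv_mul_cancel]

end Cfsg.Agent.Lib.Helper41
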