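import Cfsg.Agent.Lib.Helper41.SchurInvert

set_option autoImplicit false

namespace Cfsg.Agent.Lib.Helper41

open Subgroup
open scoped commutatorElement

universe u v w

/-- The Heisenberg group over a commutative ring. -/
@[ext] structure Heis (R : Type u) : Type u where
  x : R
  y : R
  z : R

namespace Heis

variable {R : Type u} [CommRing R]

instance instMulHeis : Mul (Heis R) := ⟨fun p q => ⟨p.x + q.x, p.y + q.y, p.z + q.z + p.x * q.y⟩⟩
instance instOneHeis : One (Heis R) := ⟨⟨0, 0, 0⟩⟩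
instance instInvHeis : Inv (Heis R) := ⟨fun p => ⟨-p.x, -p.y, -p.z + p.x * p.y⟩⟩

@[simp] lemma mul_x (p q : Heis R) : (p * q).x = p.x + q.x := rfl
@[simp] lemma mul_y (p q : Heis R) : (p * q).y = p.y + q.y := rfl
@[simp] lemma mul_z (p q : Heis R) : (p * q).z = p.z + q.z + p.x * q.y := rfl
@[simp] lemma one_x : (1 : Heis R).x = 0 := rfl
@[simp] lemma one_y : (1 : Heis R).y = 0 := rfl
@[simp] lemma one_z : (1 : Heis R).z = 0 := rfl
@[simp] lemma inv_x (p : Heis R) : (p⁻¹).x = -p.x := rfl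
@[simp] lemma inv_y (p : Heis R) : (p⁻¹).y = -p.y := rfl
@[simp] lemma inv_z (p : Heis R) : (p⁻¹).z = -p.z + p.x * p.y := rfl

instance instGroupHeis : Group (Heis R) :=
  Group.ofLeftAxioms
    (fun p q s => by ext <;> simp <;> ring)
    (fun p => by ext <;> simp)
    (fun p => by ext <;> simp)

instance instFiniteHeis [Finite R] : Finite (Heis R) :=
  Finite.of_injective (fun p : Heis R => (p.x, p.y, p.z)) (fun p q h => by
    simp only [Prod.mk.injEq] at h
    exact Heis.ext h.1 h.2.1 h.2.2)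

/-- The projection to `R × R`. -/
def proj : Heis R →* Multiplicative (R × R) where
  toFun p := Multiplicative.ofAdd (p.x, p.y)
  map_one' := rfl
  map_mul' _ _ := rfl

lemma mem_ker_proj (p : Heis R) : p ∈ (proj (R := R)).ker ↔ p.x = 0 ∧ p.y = 0 := by
  rw [MonoidHom.mem_ker]
  constructor
  · intro h
    have h' : (p.x, p.y) = (0, 0) := Multiplicative.ofAdd.injective h
    exact ⟨congrArg Prod.fst h', congrArg Prod.snd h'⟩
  · rintro ⟨h1, h2⟩
    change Multiplicative.ofAdd (p.x, p.y) = 1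
    rw [h1, h2]; rfl

lemma proj_stem : IsStemExtension (proj (R := R)) := by
  refine ⟨?_, ?_, ?_⟩
  · intro q
    exact ⟨⟨q.toAdd.1, q.toAdd.2, 0⟩, rfl⟩
  · intro p hp
    obtain ⟨h1, h2⟩ := (mem_ker_proj p).mp hp
    rw [mem_center_iff]
    intro q
    ext <;> simp [h1, h2, add_comm]
  · intro p hp
    obtain ⟨h1, h2⟩ := (mem_ker_proj p).mp hp
    have : p = ⁅(⟨1, 0, 0⟩ : Heis R), ⟨0, p.z, 0⟩⁆ := by
      rw [commutatorElement_def]
      ext <;> simp [h1, h2]
    rw [this]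
    exact Subgroup.commutator_mem_commutator (mem_top _) (mem_top _)

/-- The kernel of the projection is the additive group of `R`. -/
def kerEquiv : (proj (R := R)).ker ≃* Multiplicative R where
  toFun p := Multiplicative.ofAdd p.1.z
  invFun t := ⟨⟨0, 0, t.toAdd⟩, (mem_ker_proj _).mpr ⟨rfl, rfl⟩⟩
  left_inv p := by
    obtain ⟨h1, h2⟩ := (mem_ker_proj p.1).mp p.2
    apply Subtype.ext
    ext
    · exact h1.symm
    · exact h2.symm
    · rfl
  right_inv t := rfl
  map_mul' p q := by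
    obtain ⟨h1, h2⟩ := (mem_ker_proj p.1).mp p.2
    change Multiplicative.ofAdd (p.1.z + q.1.z + p.1.x * q.1.y) = _
    rw [h1, zero_mul, add_zero]; rfl

end Heis

/-- Pulling back a stem extension along a surjection from a commutative group. -/
lemma stem_pullback_comm {G : Type*} {G₀ : Type*} {H : Type*} [CommGroup G] [Group G₀] [Group H]
    (θ : G →* G₀) (hθ : Function.Surjective θ) (σ₀ : H →* G₀) (h₀ : IsStemExtension σ₀) :
    IsStemExtension (pbFst θ σ₀) := by
  refine ⟨pbFst_surjective θ σ₀ h₀.1, ker_pbFst_le_center θ σ₀ h₀.2.1, ?_⟩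
  have key : commutator H ≤
      (commutator (pb θ σ₀) ⊓ (pbFst θ σ₀).ker).map (pbSnd θ σ₀) := by
    rw [commutator_def, Subgroup.commutator_le]
    intro h _ h' _
    obtain ⟨g, hg⟩ := hθ (σ₀ h)
    obtain ⟨g', hg'⟩ := hθ (σ₀ h')
    refine ⟨⁅(⟨(g, h), hg⟩ : pb θ σ₀), ⟨(g', h'), hg'⟩⁆,
      ⟨Subgroup.commutator_mem_commutator (mem_top _) (mem_top _), ?_⟩, ?_⟩
    · change pbFst θ σ₀ _ = 1
      rw [map_commutatorElement, commutatorElement_eq_one_iff_mul_comm, mul_comm]
    · rw [map_commutatorElement]; rfl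
  intro x hx
  have hx1 : x.1.1 = 1 := hx
  have hx2 : x.1.2 ∈ σ₀.ker := (kerPbFstEquiv θ σ₀ ⟨x, hx⟩).2
  obtain ⟨y, ⟨hy1, hy2⟩, hy3⟩ := key (h₀.2.2 hx2)
  have hy2' : y.1.1 = 1 := hy2
  have hy3' : y.1.2 = x.1.2 := hy3
  have : x = y := by
    apply Subtype.ext; apply Prod.ext
    · rw [hx1, hy2']
    · exact hy3'.symm
  rw [this]; exact hy1

end Cfsg.Agent.Lib.Helper41
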