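import Cfsg.Agent.Lib.Helper41.SchurMore

set_option autoImplicit false

namespace Cfsg.Agent.Lib.Helper41

open Subgroup
open scoped commutatorElement

universe u v w

section

variable {Γ : Type*} {G : Type*} [Group Γ] [Group G]

lemma comm_of_closure_eq_top (k : Set G) (hk : closure k = ⊤)
    (hcomm : ∀ x ∈ k, ∀ y ∈ k, x * y = y * x) (x y : G) : x * y = y * x := by
  have := Subgroup.isMulCommutative_closure hcomm
  have hx : x ∈ closure k := hk ▸ mem_top x
  have hy : y ∈ closure k := hk ▸ mem_top y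
  exact setLike_mul_comm hx hy

/-- If a normal subgroup `C` contains the commutators of a generating set, it contains the
commutator subgroup. -/
lemma commutator_le_of_generators (C : Subgroup Γ) [C.Normal] (k : Set Γ) (hk : closure k = ⊤)
    (hcomm : ∀ x ∈ k, ∀ y ∈ k, ⁅x, y⁆ ∈ C) : commutator Γ ≤ C := by
  have h1 : closure ((QuotientGroup.mk' C) '' k) = ⊤ := by
    rw [← MonoidHom.map_closure, hk, ← MonoidHom.range_eq_map,
      MonoidHom.range_eq_top_of_surjective _ (QuotientGroup.mk'_surjective C)]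
  have h2 := comm_of_closure_eq_top _ h1 (by
    rintro _ ⟨x, hx, rfl⟩ _ ⟨y, hy, rfl⟩
    have := (QuotientGroup.eq_one_iff (N := C) _).mpr (hcomm x hx y hy)
    rw [commutatorElement_def] at this
    have h3 : (QuotientGroup.mk' C x) * (QuotientGroup.mk' C y) * (QuotientGroup.mk' C x)⁻¹ *
      (QuotientGroup.mk' C y)⁻¹ = 1 := this
    rw [mul_inv_eq_one, mul_inv_eq_iff_eq_mul] at h3
    exact h3)
  rw [commutator_def, Subgroup.commutator_le]
  intro x _ y _
  rw [← QuotientGroup.eq_one_iff, commutatorElement_def]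
  change (QuotientGroup.mk' C x) * (QuotientGroup.mk' C y) * (QuotientGroup.mk' C x)⁻¹ *
      (QuotientGroup.mk' C y)⁻¹ = 1
  rw [mul_inv_eq_one, mul_inv_eq_iff_eq_mul]
  exact h2 _ _

lemma mem_normalizer_zpowers_of_commute {g c : Γ} (h : Commute g c) :
    g ∈ normalizer (zpowers c : Set Γ) := by
  rw [mem_normalizer_iff]
  intro x
  constructor
  · rintro ⟨k, rfl⟩
    have : g * c ^ k * g⁻¹ = c ^ k := by
      rw [mul_inv_eq_iff_eq_mul]; exact (h.zpow_right k).eq
    rw [this]; exact ⟨k, rfl⟩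
  · rintro ⟨k, hk⟩
    have hk' : c ^ k = g * x * g⁻¹ := hk
    have : x = c ^ k := by
      have h2 : g⁻¹ * c ^ k * g = c ^ k := by
        rw [mul_assoc, ← (h.zpow_right k).eq, inv_mul_cancel_left]
      rw [← h2, hk']; group
    rw [this]; exact ⟨k, rfl⟩

lemma mem_normalizer_zpowers_of_conj_inv {g c : Γ} (h : g * c * g⁻¹ = c⁻¹) :
    g ∈ normalizer (zpowers c : Set Γ) := by
  have h1 : ∀ k : ℤ, g * c ^ k * g⁻¹ = (c ^ k)⁻¹ := by
    intro k
    have : g * c ^ k * g⁻¹ = (g * c * g⁻¹) ^ k := (conj_zpow).symm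
    rw [this, h, inv_zpow]
  rw [mem_normalizer_iff]
  intro x
  constructor
  · rintro ⟨k, rfl⟩
    change g * c ^ k * g⁻¹ ∈ zpowers c
    rw [h1]; exact (zpowers c).inv_mem ⟨k, rfl⟩
  · rintro ⟨k, hk⟩
    have hk' : c ^ k = g * x * g⁻¹ := hk
    have h2 : g * (c ^ k)⁻¹ * g⁻¹ = c ^ k := by
      rw [← zpow_neg, h1, zpow_neg, inv_inv]
    have : x = (c ^ k)⁻¹ := by
      have h3 : g * x * g⁻¹ = g * (c ^ k)⁻¹ * g⁻¹ := by rw [h2, hk']
      exact mul_left_cancel (mul_right_cancel h3)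
    rw [this]; exact (zpowers c).inv_mem ⟨k, rfl⟩

variable (σ : Γ →* G) (hσ : IsStemExtension σ)

omit hσ in
lemma closure_union_ker_eq_top (k : Set Γ) (hgen : closure (σ '' k) = ⊤) :
    closure k ⊔ σ.ker = ⊤ := by
  rw [eq_top_iff]
  intro x _
  have hx : σ x ∈ (closure k).map σ := by
    rw [MonoidHom.map_closure, hgen]; exact mem_top _
  obtain ⟨y, hy, hyx⟩ := hx
  have : x = y * (y⁻¹ * x) := by group
  rw [this]
  refine Subgroup.mul_mem_sup hy ?_
  rw [MonoidHom.mem_ker, map_mul, map_inv, hyx, inv_mul_cancel]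

include hσ in
/-- In a stem extension, lifts of generators generate. -/
lemma closure_eq_top_of_stem (k : Set Γ) (hgen : closure (σ '' k) = ⊤) : closure k = ⊤ := by
  have hsup := closure_union_ker_eq_top σ k hgen
  have h1 : σ.ker ≤ closure k :=
    (hσ.2.2.trans (commutator_le_of_sup_central _ _ hσ.2.1 hsup)).trans
      (Subgroup.commutator_le_self _)
  rwa [sup_eq_left.mpr h1] at hsup

include hσ in
/-- Stem extensions of groups generated by `x, y` with `y x y⁻¹ = x⁻¹`. -/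
theorem stem_invert (a b : Γ) (hgen : closure {σ a, σ b} = ⊤)
    (hinv : σ b * σ a * (σ b)⁻¹ = (σ a)⁻¹) :
    σ.ker ≤ zpowers ⁅b, a⁆ ∧ ∀ N : ℕ, Commute b (a ^ N) → ⁅b, a⁆ ^ N = 1 := by
  set u := b * a * b⁻¹ with hu
  have hz : a * u ∈ center Γ := by
    apply hσ.2.1
    rw [MonoidHom.mem_ker, hu]
    simp only [map_mul, map_inv]
    rw [hinv, mul_inv_cancel]
  have hc : ⁅b, a⁆ = u * a⁻¹ := by rw [commutatorElement_def]
  have hau : Commute a u := by
    have h1 := mem_center_iff.mp hz a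
    -- a * (a * u) = a * u * a
    have h2 : a * (a * u) = a * (u * a) := by rw [h1]; group
    exact mul_left_cancel h2
  have hbu : b * u * b⁻¹ = a := by
    have h1 := mem_center_iff.mp hz b
    -- b * (a * u) = a * u * b
    have h2 : u * (b * u * b⁻¹) = u * a := by
      calc u * (b * u * b⁻¹) = (b * (a * u)) * b⁻¹ := by rw [hu]; group
        _ = a * u := by rw [h1]; group
        _ = u * a := hau.eq
    exact mul_left_cancel h2
  have hac : Commute a ⁅b, a⁆ := by
    rw [hc]; exact hau.mul_right (Commute.refl a).inv_right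
  have hbc : b * ⁅b, a⁆ * b⁻¹ = ⁅b, a⁆⁻¹ := by
    rw [hc]
    calc b * (u * a⁻¹) * b⁻¹ = (b * u * b⁻¹) * (b * a * b⁻¹)⁻¹ := by group
      _ = a * u⁻¹ := by rw [hbu]
      _ = (u * a⁻¹)⁻¹ := by group
  have hk : closure ({a, b} : Set Γ) = ⊤ := by
    apply closure_eq_top_of_stem σ hσ
    rw [Set.image_pair]; exact hgen
  have hnorm : (zpowers ⁅b, a⁆).Normal := by
    rw [← normalizer_eq_top_iff, eq_top_iff, ← hk, closure_le]
    intro x hx
    have hx' : x = a ∨ x = b := hx
    rcases hx' with h | h <;> rw [h]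
    · exact mem_normalizer_zpowers_of_commute hac
    · exact mem_normalizer_zpowers_of_conj_inv hbc
  refine ⟨hσ.2.2.trans (commutator_le_of_generators _ _ hk ?_), ?_⟩
  · intro x hx y hy
    have hx' : x = a ∨ x = b := hx
    have hy' : y = a ∨ y = b := hy
    rcases hx' with h | h <;> rcases hy' with h' | h' <;> rw [h, h']
    · rw [commutatorElement_self]; exact one_mem _
    · rw [← commutatorElement_inv b a]; exact (zpowers ⁅b, a⁆).inv_mem (mem_zpowers _)
    · exact mem_zpowers _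
    · rw [commutatorElement_self]; exact one_mem _
  · intro N hN
    have h1 : u ^ N = a ^ N := by
      rw [hu, conj_pow, mul_inv_eq_iff_eq_mul]; exact hN.eq
    rw [hc, (hau.symm.inv_right).mul_pow, h1, inv_pow, mul_inv_cancel]

include hσ in
theorem stem_invert_card [Finite Γ] (a b : Γ) (hgen : closure {σ a, σ b} = ⊤)
    (hinv : σ b * σ a * (σ b)⁻¹ = (σ a)⁻¹) (o d : ℕ) (hd : 0 < d)
    (hN : Commute b (a ^ (o * d)))
    (ho : ∀ k : ℤ, (σ a) ^ (2 * k) = 1 → (o : ℤ) ∣ k) : Nat.card σ.ker ≤ d := by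
  obtain ⟨h1, h2⟩ := stem_invert σ hσ a b hgen hinv
  have h3 : σ.ker ≤ zpowers (⁅b, a⁆ ^ o) := by
    intro x hx
    obtain ⟨k, rfl⟩ := h1 hx
    have hx' : σ (⁅b, a⁆ ^ k) = 1 := hx
    have h4 : σ ⁅b, a⁆ = ((σ a) ^ (2 : ℤ))⁻¹ := by
      rw [map_commutatorElement, commutatorElement_def, hinv]; group
    rw [map_zpow, h4, inv_zpow, inv_eq_one, ← zpow_mul] at hx'
    obtain ⟨j, rfl⟩ := ho k hx'
    exact ⟨j, by simp [zpow_mul]⟩
  calc Nat.card σ.ker ≤ Nat.card (zpowers (⁅b, a⁆ ^ o)) := Subgroup.card_le_of_le h3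
    _ = orderOf (⁅b, a⁆ ^ o) := Nat.card_zpowers _
    _ ≤ d := orderOf_le_of_pow_eq_one hd (by rw [← pow_mul]; exact h2 _ hN)

end

end Cfsg.Agent.Lib.Helper41
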