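import Cfsg.Agent.Lib.Helper41.SchurInvert

set_option autoImplicit false

namespace Cfsg.Agent.Lib.Helper41

open Subgroup
open scoped commutatorElement

universe u v w

section MetaRel

variable {Γ : Type*} [Group Γ] (A B : Γ) (m n r t : ℕ)

/-- Consequences of the metacyclic relations holding modulo the centre. -/
theorem meta_rel (hr : 0 < r) (hx : A ^ m ∈ center Γ) (hy : B ^ n * (A ^ t)⁻¹ ∈ center Γ)
    (hz : B * A * B⁻¹ * (A ^ r)⁻¹ ∈ center Γ) :
    Commute A ⁅B, A⁆ ∧ B * ⁅B, A⁆ * B⁻¹ = ⁅B, A⁆ ^ r ∧ ⁅B, A⁆ ^ m = 1 ∧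
      ⁅B, A⁆ ^ (∑ i ∈ Finset.range n, r ^ i) = 1 ∧ ⁅B, A⁆ ^ t = 1 := by
  set z := B * A * B⁻¹ * (A ^ r)⁻¹ with hzdef
  set c := ⁅B, A⁆ with hcdef
  have hzc : ∀ g, Commute z g := fun g => (mem_center_iff.mp hz g).symm
  obtain ⟨r', rfl⟩ : ∃ r', r = r' + 1 := ⟨r - 1, by omega⟩
  have hBA : B * A * B⁻¹ = z * A ^ (r' + 1) := by rw [hzdef]; group
  have hc : c = z * A ^ r' := by
    rw [hcdef, commutatorElement_def, hBA, pow_succ]; group
  have hAc : Commute A c := by
    rw [hc]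
    exact ((hzc A).symm).mul_right (Commute.pow_right (Commute.refl A) r')
  have hBA' : B * A * B⁻¹ = c * A := by rw [hBA, hc, pow_succ]; group
  have hconjA : ∀ k : ℕ, B * A ^ k * B⁻¹ = c ^ k * A ^ k := by
    intro k
    rw [← conj_pow, hBA', hAc.symm.mul_pow]
  have hBc : B * c * B⁻¹ = c ^ (r' + 1) := by
    have h1 : B * c * B⁻¹ = (B * z * B⁻¹) * (B * A ^ r' * B⁻¹) := by rw [hc]; group
    have h2 : B * z * B⁻¹ = z := by
      rw [mul_inv_eq_iff_eq_mul]; exact ((hzc B).eq).symm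
    rw [h1, h2, hconjA, ← mul_assoc, (hzc (c ^ r')).eq, mul_assoc, ← hc, pow_succ]
  have hcm : ∀ k : ℕ, Commute B (A ^ k) → c ^ k = 1 := by
    intro k hk
    have h1 := hconjA k
    have h2 : B * A ^ k * B⁻¹ = A ^ k := by
      rw [mul_inv_eq_iff_eq_mul]; exact hk.eq
    rw [h2] at h1
    exact (mul_eq_right.mp h1.symm)
  have hyc : ∀ g, Commute (B ^ n * (A ^ t)⁻¹) g := fun g => (mem_center_iff.mp hy g).symm
  have hBn : B ^ n = (B ^ n * (A ^ t)⁻¹) * A ^ t := by group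
  refine ⟨hAc, hBc, hcm m (mem_center_iff.mp hx B), ?_, ?_⟩
  · have hconj : ∀ j : ℕ, B ^ j * A * (B ^ j)⁻¹ = c ^ (∑ i ∈ Finset.range j, (r' + 1) ^ i) * A := by
      intro j
      induction j with
      | zero => simp
      | succ j ih =>
        have h1 : B ^ (j + 1) * A * (B ^ (j + 1))⁻¹ = B * (B ^ j * A * (B ^ j)⁻¹) * B⁻¹ := by
          rw [pow_succ']; group
        have h2 : ∀ e : ℕ, B * (c ^ e * A) * B⁻¹ = c ^ ((r' + 1) * e + 1) * A := by
          intro e
          have : B * (c ^ e * A) * B⁻¹ = (B * c * B⁻¹) ^ e * (B * A * B⁻¹) := by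
            rw [conj_pow]; group
          rw [this, hBc, hBA', ← pow_mul, pow_succ, mul_assoc]
        rw [h1, ih, h2]
        congr 2
        rw [Finset.sum_range_succ', Finset.mul_sum]
        simp [pow_succ']
    have h3 : Commute (B ^ n) A := by
      rw [hBn]
      exact (hyc A).mul_left (Commute.pow_left (Commute.refl A) t)
    have h4 : B ^ n * A * (B ^ n)⁻¹ = A := by
      rw [mul_inv_eq_iff_eq_mul]; exact h3.eq
    have h5 := hconj n
    rw [h4] at h5
    exact (mul_eq_right.mp h5.symm)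
  · apply hcm
    have h1 : Commute B (B ^ n) := Commute.pow_right (Commute.refl B) n
    have h2 : A ^ t = (B ^ n * (A ^ t)⁻¹)⁻¹ * B ^ n := by group
    rw [h2]
    exact ((hyc B).symm.inv_right).mul_right h1

lemma mem_normalizer_zpowers_of_conj_pow {g c : Γ} (r r' : ℕ) (h : g * c * g⁻¹ = c ^ r)
    (h' : (c ^ r) ^ r' = c) : g ∈ normalizer (zpowers c : Set Γ) := by
  have h1 : ∀ k : ℤ, g * c ^ k * g⁻¹ = (c ^ r) ^ k := by
    intro k
    rw [← conj_zpow, h]
  rw [mem_normalizer_iff]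
  intro x
  constructor
  · rintro ⟨k, rfl⟩
    change g * c ^ k * g⁻¹ ∈ zpowers c
    rw [h1]
    exact zpow_mem (pow_mem (mem_zpowers c) r) k
  · rintro ⟨k, hk⟩
    have hk' : c ^ k = g * x * g⁻¹ := hk
    have h2 : g * (c ^ r') ^ k * g⁻¹ = c ^ k := by
      rw [← zpow_natCast c r', ← zpow_mul, h1, zpow_mul, zpow_natCast, h']
    have : x = (c ^ r') ^ k := by
      have h3 : g * x * g⁻¹ = g * (c ^ r') ^ k * g⁻¹ := by rw [h2, hk']
      exact mul_left_cancel (mul_right_cancel h3)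
    rw [this]
    exact zpow_mem (pow_mem (mem_zpowers c) r') k

lemma pow_pow_eq_self_of_modEq {c : Γ} {m n r : ℕ} (hn : 0 < n) (hc : c ^ m = 1)
    (hrn : r ^ n ≡ 1 [MOD m]) : (c ^ r) ^ (r ^ (n - 1)) = c := by
  have h1 : r ^ n ≡ 1 [MOD orderOf c] := hrn.of_dvd (orderOf_dvd_of_pow_eq_one hc)
  have h2 : c ^ (r ^ n) = c ^ 1 := pow_eq_pow_iff_modEq.mpr h1
  rw [← pow_mul, ← pow_succ', Nat.sub_add_cancel hn, h2, pow_one]

lemma normal_zpowers_of_generators {A B c : Γ} (hgen : closure {A, B} = (⊤ : Subgroup Γ))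
    (hA : A ∈ normalizer (zpowers c : Set Γ)) (hB : B ∈ normalizer (zpowers c : Set Γ)) :
    (zpowers c).Normal := by
  rw [← normalizer_eq_top_iff, eq_top_iff, ← hgen, closure_le]
  rintro x (rfl | rfl)
  · exact hA
  · exact hB

theorem meta_commutator (hgen : closure {A, B} = (⊤ : Subgroup Γ)) (r r' : ℕ)
    (hAc : Commute A ⁅B, A⁆) (hBc : B * ⁅B, A⁆ * B⁻¹ = ⁅B, A⁆ ^ r)
    (hinv : (⁅B, A⁆ ^ r) ^ r' = ⁅B, A⁆) : commutator Γ = zpowers ⁅B, A⁆ := by
  apply le_antisymm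
  · have hn := normal_zpowers_of_generators hgen (mem_normalizer_zpowers_of_commute hAc)
      (mem_normalizer_zpowers_of_conj_pow r r' hBc hinv)
    apply commutator_le_of_generators _ {A, B} hgen
    rintro x (rfl | rfl) y (rfl | rfl)
    · rw [commutatorElement_self]; exact one_mem _
    · rw [← commutatorElement_inv y x]; exact inv_mem (mem_zpowers _)
    · exact mem_zpowers _
    · rw [commutatorElement_self]; exact one_mem _
  · rw [zpowers_le]
    exact Subgroup.commutator_mem_commutator (mem_top _) (mem_top _)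

end MetaRel

end Cfsg.Agent.Lib.Helper41
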