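import Cfsg.Agent.Lib.Helper41.SchurMeta
import Cfsg.Agent.Lib.Helper41.MetaModel
import Mathlib.GroupTheory.PresentedGroup
import Mathlib.GroupTheory.SpecificGroups.Cyclic
import Mathlib.Data.ZMod.Units
import Mathlib.Algebra.Order.Ring.GeomSum

set_option autoImplicit false

namespace Cfsg.Agent.Lib.Helper41

open Subgroup Finset
open scoped commutatorElement

lemma exists_coprime_lift (m₁ r₁ g : ℕ) (hm₁ : 0 < m₁) (hg : 0 < g) (hc : Nat.Coprime r₁ m₁) :
    ∃ j : ℕ, j ≡ r₁ [MOD m₁] ∧ Nat.Coprime j (m₁ * g) := by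
  have : NeZero (m₁ * g) := ⟨(Nat.mul_pos hm₁ hg).ne'⟩
  obtain ⟨w, hw⟩ := ZMod.unitsMap_surjective (Dvd.intro g rfl : m₁ ∣ m₁ * g)
    (ZMod.unitOfCoprime r₁ hc)
  refine ⟨(w : ZMod (m₁ * g)).val, ?_, ZMod.val_coe_unit_coprime w⟩
  have h1 := congrArg Units.val hw
  rw [ZMod.unitsMap_val, ZMod.coe_unitOfCoprime] at h1
  rw [← ZMod.natCast_eq_natCast_iff, ZMod.natCast_val]
  exact h1

lemma meta_arith (m n r l : ℕ) (hm : 0 < m) (hr : 0 < r) (hrn : r ^ n ≡ 1 [MOD m]) :
    ∃ d m₁ r₁ k' : ℕ, 0 < d ∧ 0 < m₁ ∧ m = d * m₁ ∧ r = 1 + d * r₁ ∧ Nat.Coprime r₁ m₁ ∧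
      Nat.gcd m (r - 1) = d ∧ (∑ i ∈ range n, r ^ i) = m₁ * k' ∧ m * l / d = m₁ * l ∧
      d * Nat.gcd m (∑ i ∈ range n, r ^ i) / m = Nat.gcd d k' := by
  obtain ⟨m₁, r₁, hcop, h1, h2⟩ := Nat.exists_coprime m (r - 1)
  have hd0 : 0 < Nat.gcd m (r - 1) := Nat.gcd_pos_of_pos_left _ hm
  generalize hd : Nat.gcd m (r - 1) = d at *
  have hm₁ : 0 < m₁ := by
    rcases Nat.eq_zero_or_pos m₁ with h | h
    · rw [h, zero_mul] at h1; omega
    · exact h
  have hs : (∑ i ∈ range n, r ^ i) * (r - 1) + 1 = r ^ n := by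
    have := geom_sum_mul_add (r - 1) n
    have h0 : r - 1 + 1 = r := Nat.sub_add_cancel hr
    rwa [h0] at this
  have hdvd : m ∣ (∑ i ∈ range n, r ^ i) * (r - 1) := by
    have h3 : m ∣ r ^ n - 1 := (Nat.modEq_iff_dvd' (Nat.one_le_pow _ _ hr)).mp hrn.symm
    rw [← hs] at h3
    simpa using h3
  have hdvd2 : m₁ ∣ (∑ i ∈ range n, r ^ i) := by
    rw [h2] at hdvd
    nth_rewrite 1 [h1] at hdvd
    rw [← mul_assoc] at hdvd
    have h4 := Nat.dvd_of_mul_dvd_mul_right hd0 hdvd
    exact hcop.dvd_of_dvd_mul_right h4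
  obtain ⟨k', hk'⟩ := hdvd2
  refine ⟨d, m₁, r₁, k', hd0, hm₁, by rw [mul_comm]; exact h1, by rw [mul_comm d]; omega,
    hcop.symm, rfl, hk', ?_, ?_⟩
  · rw [h1, mul_comm m₁ d, mul_assoc, Nat.mul_div_cancel_left _ hd0]
  · rw [hk', h1, Nat.gcd_mul_left, ← mul_assoc, mul_comm d m₁,
      Nat.mul_div_cancel_left _ (Nat.mul_pos hm₁ hd0)]

/-- The relators of the metacyclic presentation. -/
abbrev metaRels (m n r t : ℕ) : Set (FreeGroup Bool) :=
  {FreeGroup.of true ^ m, (FreeGroup.of false) ^ n * (FreeGroup.of true ^ t)⁻¹,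
    FreeGroup.of false * FreeGroup.of true * (FreeGroup.of false)⁻¹ * (FreeGroup.of true ^ r)⁻¹}

lemma closure_pair_of_surjective {Γ : Type*} [Group Γ] (f : FreeGroup Bool →* Γ)
    (hf : Function.Surjective f) :
    closure {f (FreeGroup.of true), f (FreeGroup.of false)} = (⊤ : Subgroup Γ) := by
  have h1 : Set.range (FreeGroup.of : Bool → FreeGroup Bool) =
      {FreeGroup.of true, FreeGroup.of false} := by
    ext x
    simp only [Set.mem_range, Bool.exists_bool, Set.mem_insert_iff, Set.mem_singleton_iff]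
    constructor
    · rintro (h | h)
      · exact Or.inr h.symm
      · exact Or.inl h.symm
    · rintro (h | h)
      · exact Or.inr h.symm
      · exact Or.inl h.symm
  have h2 := FreeGroup.closure_range_of Bool
  rw [h1] at h2
  have h3 := congrArg (Subgroup.map f) h2
  rw [MonoidHom.map_closure, Set.image_pair, ← MonoidHom.range_eq_map,
    MonoidHom.range_eq_top_of_surjective f hf] at h3
  exact h3

lemma commute_lift_of_generators {Γ : Type*} [Group Γ] (α β e : Γ) (h1 : Commute e α)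
    (h2 : Commute e β) (w : FreeGroup Bool) :
    Commute e (FreeGroup.lift (fun b : Bool => if b then α else β) w) := by
  induction w using FreeGroup.induction_on with
  | C1 => simp
  | of x => cases x <;> simpa
  | inv_of x ih => rw [map_inv]; exact ih.inv_right
  | mul x y hx hy => rw [map_mul]; exact hx.mul_right hy

lemma relComm_le_ker_of_central {X : Type*} (rels : Set (FreeGroup X)) {Γ : Type*} [Group Γ]
    (f₀ : FreeGroup X →* Γ) (h : ∀ x ∈ rels, ∀ w : FreeGroup X, Commute (f₀ x) (f₀ w)) :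
    relComm (PresentedGroup.mk rels) ≤ f₀.ker := by
  let Cn : Subgroup (FreeGroup X) := (Subgroup.centralizer (f₀.range : Set Γ)).comap f₀
  have hmem : ∀ x, x ∈ Cn ↔ ∀ w, Commute (f₀ x) (f₀ w) := by
    intro x
    constructor
    · intro hx w
      exact ((mem_centralizer_iff.mp hx) (f₀ w) ⟨w, rfl⟩).symm
    · intro hx
      show f₀ x ∈ Subgroup.centralizer (f₀.range : Set Γ)
      rw [mem_centralizer_iff]
      rintro _ ⟨w, rfl⟩
      exact (hx w).symm
  have hn : Cn.Normal := by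
    constructor
    intro x hx g
    rw [hmem] at hx ⊢
    intro w
    have h1 : f₀ (g * x * g⁻¹) = f₀ x := by
      rw [map_mul, map_mul, map_inv, mul_inv_eq_iff_eq_mul]
      exact (hx g).symm.eq
    rw [h1]
    exact hx w
  have hle : (PresentedGroup.mk rels).ker ≤ Cn := by
    have : (PresentedGroup.mk rels).ker = normalClosure rels := by
      ext x
      rw [MonoidHom.mem_ker, PresentedGroup.mk_eq_one_iff]
    rw [this]
    apply normalClosure_le_normal
    intro x hx
    exact (hmem x).mpr (h x hx)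
  unfold relComm
  rw [Subgroup.commutator_le]
  intro x hx w _
  rw [MonoidHom.mem_ker, map_commutatorElement, commutatorElement_eq_one_iff_commute]
  exact (hmem x).mp (hle hx) w

section GPart

variable (m n r t : ℕ)

lemma metaG_rel1 : (PresentedGroup.mk (metaRels m n r t) (FreeGroup.of true)) ^ m = 1 := by
  rw [← map_pow]
  exact PresentedGroup.one_of_mem (by simp)

lemma metaG_rel2 : (PresentedGroup.mk (metaRels m n r t) (FreeGroup.of false)) ^ n =
    (PresentedGroup.mk (metaRels m n r t) (FreeGroup.of true)) ^ t := by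
  have h : PresentedGroup.mk (metaRels m n r t)
      ((FreeGroup.of false) ^ n * (FreeGroup.of true ^ t)⁻¹) = 1 :=
    PresentedGroup.one_of_mem (by simp)
  rw [map_mul, map_inv, map_pow, map_pow, mul_inv_eq_one] at h
  exact h

lemma metaG_rel3 : PresentedGroup.mk (metaRels m n r t) (FreeGroup.of false) *
    PresentedGroup.mk (metaRels m n r t) (FreeGroup.of true) *
    (PresentedGroup.mk (metaRels m n r t) (FreeGroup.of false))⁻¹ =
    (PresentedGroup.mk (metaRels m n r t) (FreeGroup.of true)) ^ r := by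
  have h : PresentedGroup.mk (metaRels m n r t) (FreeGroup.of false * FreeGroup.of true *
      (FreeGroup.of false)⁻¹ * (FreeGroup.of true ^ r)⁻¹) = 1 :=
    PresentedGroup.one_of_mem (by simp)
  rw [map_mul, map_inv, map_pow, mul_inv_eq_one, map_mul, map_mul, map_inv] at h
  exact h

lemma metaG_finite (hm : 0 < m) (hn : 0 < n) (hrn : r ^ n ≡ 1 [MOD m]) :
    Finite (PresentedGroup (metaRels m n r t)) := by
  set a := PresentedGroup.mk (metaRels m n r t) (FreeGroup.of true) with ha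
  set b := PresentedGroup.mk (metaRels m n r t) (FreeGroup.of false) with hb
  have h1 : a ^ m = 1 := metaG_rel1 m n r t
  have h2 : b ^ n = a ^ t := metaG_rel2 m n r t
  have h3 : b * a * b⁻¹ = a ^ r := metaG_rel3 m n r t
  have hgen : closure {a, b} = ⊤ :=
    closure_pair_of_surjective _ (PresentedGroup.mk_surjective (metaRels m n r t))
  have hN : (zpowers a).Normal := normal_zpowers_of_generators hgen
    (mem_normalizer_zpowers_of_commute (Commute.refl a))
    (mem_normalizer_zpowers_of_conj_pow r (r ^ (n - 1)) h3 (pow_pow_eq_self_of_modEq hn h1 hrn))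
  have hNf : Finite (zpowers a) := finite_zpowers.mpr (isOfFinOrder_iff_pow_eq_one.mpr ⟨m, hm, h1⟩)
  have hbn : (QuotientGroup.mk b : _ ⧸ zpowers a) ^ n = 1 := by
    rw [← QuotientGroup.mk_pow, h2, QuotientGroup.eq_one_iff]
    exact pow_mem (mem_zpowers a) t
  have hQf0 : Finite (zpowers (QuotientGroup.mk b : _ ⧸ zpowers a)) :=
    finite_zpowers.mpr (isOfFinOrder_iff_pow_eq_one.mpr ⟨n, hn, hbn⟩)
  have hall : ∀ x : _ ⧸ zpowers a, x ∈ zpowers (QuotientGroup.mk b : _ ⧸ zpowers a) := by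
    intro x
    obtain ⟨y, rfl⟩ := QuotientGroup.mk_surjective x
    have hy : y ∈ closure {a, b} := hgen ▸ mem_top y
    have hle : closure {a, b} ≤
        (zpowers (QuotientGroup.mk b : _ ⧸ zpowers a)).comap (QuotientGroup.mk' (zpowers a)) := by
      rw [closure_le]
      rintro z (rfl | rfl)
      · show (QuotientGroup.mk a : _ ⧸ zpowers a) ∈
          zpowers (QuotientGroup.mk b : _ ⧸ zpowers a)
        rw [(QuotientGroup.eq_one_iff _).mpr (mem_zpowers _)]
        exact one_mem _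
      · exact mem_zpowers _
    exact hle hy
  have hQf : Finite (_ ⧸ zpowers a) :=
    Finite.of_surjective (fun k : zpowers (QuotientGroup.mk b : _ ⧸ zpowers a) => k.1)
      (fun x => ⟨⟨x, hall x⟩, rfl⟩)
  have hk : Finite (QuotientGroup.mk' (zpowers a)).ker := by
    rw [QuotientGroup.ker_mk']; exact hNf
  exact finite_of_ker_of_finite (QuotientGroup.mk' (zpowers a))

lemma metaG_orderOf (hm : 0 < m) (hn : 0 < n) (hrn : r ^ n ≡ 1 [MOD m])
    (ht : t * r ≡ t [MOD m]) :
    orderOf (PresentedGroup.mk (metaRels m n r t) (FreeGroup.of true)) = m := by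
  have : NeZero m := ⟨hm.ne'⟩
  have : NeZero n := ⟨hn.ne'⟩
  have hα : mAlpha m n r ^ m = 1 := (mAlpha_pow_eq_one_iff m n r m).mpr dvd_rfl
  let φ : PresentedGroup (metaRels m n r t) →* Equiv.Perm (ZMod n × ZMod m) :=
    PresentedGroup.toGroup (f := fun b : Bool => if b then mAlpha m n r else mBeta m n t) (by
      rintro x (rfl | rfl | rfl)
      · simpa using hα
      · simp only [map_mul, map_inv, map_pow, FreeGroup.lift_apply_of, if_true]
        rw [mul_inv_eq_one]
        simpa using mBeta_pow m n r t ht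
      · simp only [map_mul, map_inv, map_pow, FreeGroup.lift_apply_of, if_true]
        rw [mul_inv_eq_one]
        simpa using mBeta_mul_mAlpha m n r t hrn)
  have hφ : φ (PresentedGroup.mk (metaRels m n r t) (FreeGroup.of true)) = mAlpha m n r := by
    show FreeGroup.lift (fun b : Bool => if b then mAlpha m n r else mBeta m n t)
      (FreeGroup.of true) = _
    simp
  apply Nat.dvd_antisymm
  · exact orderOf_dvd_of_pow_eq_one (metaG_rel1 m n r t)
  · have := orderOf_map_dvd φ (PresentedGroup.mk (metaRels m n r t) (FreeGroup.of true))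
    rwa [hφ, orderOf_mAlpha] at this

end GPart

/-- The free central extension of the metacyclic presentation. -/
abbrev metaE (m n r t : ℕ) : Type := CE (PresentedGroup.mk (metaRels m n r t))

/-- The image of the generator `a`. -/
def metaA (m n r t : ℕ) : metaE m n r t := QuotientGroup.mk (FreeGroup.of true)

/-- The image of the generator `b`. -/
def metaB (m n r t : ℕ) : metaE m n r t := QuotientGroup.mk (FreeGroup.of false)

/-- The order of the commutator `[b, a]` in the free central extension is at least `m₁ g`. -/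
lemma meta_lower (n d m₁ r₁ k' l : ℕ) (hn : 0 < n) (hd : 0 < d) (hm₁ : 0 < m₁)
    (hcop : Nat.Coprime r₁ m₁) (hs : ∑ i ∈ range n, (1 + d * r₁) ^ i = m₁ * k') (k : ℕ)
    (hk : ⁅metaB (d * m₁) n (1 + d * r₁) (m₁ * l), metaA (d * m₁) n (1 + d * r₁) (m₁ * l)⁆ ^ k = 1) :
    m₁ * Nat.gcd l (Nat.gcd d k') ∣ k := by
  set g := Nat.gcd l (Nat.gcd d k') with hg
  have hg0 : 0 < g := Nat.gcd_pos_of_pos_right _ (Nat.gcd_pos_of_pos_left _ hd)
  obtain ⟨l', hl'⟩ : g ∣ l := Nat.gcd_dvd_left _ _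
  obtain ⟨d', hd'⟩ : g ∣ d := (Nat.gcd_dvd_right _ _).trans (Nat.gcd_dvd_left _ _)
  have hgk : g ∣ k' := (Nat.gcd_dvd_right _ _).trans (Nat.gcd_dvd_right _ _)
  obtain ⟨j, hj1, hj2⟩ := exists_coprime_lift m₁ r₁ g hm₁ hg0 hcop
  have hM0 : 0 < d * m₁ * g := Nat.mul_pos (Nat.mul_pos hd hm₁) hg0
  have : NeZero (d * m₁ * g) := ⟨hM0.ne'⟩
  have : NeZero n := ⟨hn.ne'⟩
  have C2 : m₁ * l * (1 + d * j) ≡ m₁ * l [MOD d * m₁ * g] := by
    have h : m₁ * l * (1 + d * j) = m₁ * l + (d * m₁ * g) * (l' * j) := by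
      conv_lhs => rw [hl']
      conv_rhs => rw [hl']
      ring
    unfold Nat.ModEq
    rw [h, Nat.add_mul_mod_self_left]
  have hρr : 1 + d * j ≡ 1 + d * r₁ [MOD d * m₁] := (hj1.mul_left' d).add_left 1
  have hsum : ∑ i ∈ range n, (1 + d * j) ^ i ≡ ∑ i ∈ range n, (1 + d * r₁) ^ i [MOD d * m₁] := by
    rw [← ZMod.natCast_eq_natCast_iff] at hρr ⊢
    rw [Nat.cast_sum, Nat.cast_sum]
    apply Finset.sum_congr rfl
    intro i _
    rw [Nat.cast_pow, Nat.cast_pow, hρr]
  have hdvd1 : m₁ * g ∣ d * m₁ := by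
    rw [mul_comm d m₁]
    exact Nat.mul_dvd_mul_left _ ⟨d', hd'⟩
  have hdvd2 : m₁ * g ∣ ∑ i ∈ range n, (1 + d * j) ^ i := by
    rw [(hsum.of_dvd hdvd1).dvd_iff dvd_rfl, hs]
    exact Nat.mul_dvd_mul_left _ hgk
  have C1 : (1 + d * j) ^ n ≡ 1 [MOD d * m₁ * g] := by
    have h := geom_sum_mul_add (d * j) n
    rw [add_comm (d * j) 1] at h
    obtain ⟨e, he⟩ := hdvd2
    rw [he] at h
    unfold Nat.ModEq
    rw [← h]
    have : m₁ * g * e * (d * j) + 1 = 1 + (d * m₁ * g) * (e * j) := by ring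
    rw [this, Nat.add_mul_mod_self_left]
  set α := mAlpha (d * m₁ * g) n (1 + d * j) with hα
  set β := mBeta (d * m₁ * g) n (m₁ * l) with hβ
  have hβα : β * α * β⁻¹ = α ^ (1 + d * j) := mBeta_mul_mAlpha _ _ _ _ C1
  have hβn : β ^ n = α ^ (m₁ * l) := mBeta_pow _ _ _ _ C2
  have hord : orderOf α = d * m₁ * g := orderOf_mAlpha _ _ _
  have hcentral : ∀ q : ℤ, ((d * m₁ : ℕ) : ℤ) ∣ q → Commute (α ^ q) β := by
    rintro q ⟨q₀, rfl⟩
    have h1 : β * α ^ (((d * m₁ : ℕ) : ℤ) * q₀) * β⁻¹ = α ^ (((d * m₁ : ℕ) : ℤ) * q₀) := by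
      rw [← conj_zpow, hβα, ← zpow_natCast, ← zpow_mul, zpow_eq_zpow_iff_modEq, hord,
        Int.modEq_iff_dvd]
      refine ⟨-(d' * j * q₀), ?_⟩
      have hd'' : (d : ℤ) = g * d' := by exact_mod_cast hd'
      push_cast
      linear_combination (-(d : ℤ) * m₁ * q₀ * j) * hd''
    rw [mul_inv_eq_iff_eq_mul] at h1
    exact h1.symm
  let f₀ : FreeGroup Bool →* Equiv.Perm (ZMod n × ZMod (d * m₁ * g)) :=
    FreeGroup.lift (fun b : Bool => if b then α else β)
  have hf₀t : f₀ (FreeGroup.of true) = α := by simp [f₀]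
  have hf₀f : f₀ (FreeGroup.of false) = β := by simp [f₀]
  have hker := relComm_le_ker_of_central (metaRels (d * m₁) n (1 + d * r₁) (m₁ * l)) f₀ (by
    rintro x (rfl | rfl | rfl) w
    · apply commute_lift_of_generators
      · rw [map_pow, hf₀t]
        exact Commute.pow_left (Commute.refl α) _
      · rw [map_pow, hf₀t, ← zpow_natCast]
        exact hcentral _ dvd_rfl
    · have : f₀ (FreeGroup.of false ^ n * (FreeGroup.of true ^ (m₁ * l))⁻¹) = 1 := by
        rw [map_mul, map_inv, map_pow, map_pow, hf₀t, hf₀f, hβn, mul_inv_cancel]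
      rw [this]
      exact Commute.one_left _
    · have : f₀ (FreeGroup.of false * FreeGroup.of true * (FreeGroup.of false)⁻¹ *
          (FreeGroup.of true ^ (1 + d * r₁))⁻¹) =
          α ^ (((1 + d * j : ℕ) : ℤ) - ((1 + d * r₁ : ℕ) : ℤ)) := by
        rw [map_mul, map_inv, map_pow, map_mul, map_mul, map_inv, hf₀t, hf₀f, hβα, zpow_sub,
          zpow_natCast, zpow_natCast]
      rw [this]
      apply commute_lift_of_generators
      · exact Commute.zpow_left (Commute.refl α) _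
      · apply hcentral
        have := (Nat.modEq_iff_dvd.mp hρr.symm)
        exact this)
  let f : CE (PresentedGroup.mk (metaRels (d * m₁) n (1 + d * r₁) (m₁ * l))) →*
      Equiv.Perm (ZMod n × ZMod (d * m₁ * g)) := QuotientGroup.lift _ f₀ hker
  have hfc : f ⁅metaB (d * m₁) n (1 + d * r₁) (m₁ * l), metaA (d * m₁) n (1 + d * r₁) (m₁ * l)⁆ =
      α ^ (d * j) := by
    rw [map_commutatorElement]
    show ⁅f₀ (FreeGroup.of false), f₀ (FreeGroup.of true)⁆ = _
    rw [hf₀t, hf₀f, commutatorElement_def, hβα, pow_add, pow_one]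
    group
  have h1 := congrArg f hk
  rw [map_pow, hfc, map_one, ← pow_mul, mAlpha_pow_eq_one_iff, mul_assoc, mul_assoc] at h1
  have h2 := Nat.dvd_of_mul_dvd_mul_left hd h1
  exact (hj2.symm).dvd_of_dvd_mul_left h2

theorem meta_multiplier_aux (n d m₁ r₁ k' l : ℕ) (hn : 0 < n) (hd : 0 < d) (hm₁ : 0 < m₁)
    (hcop : Nat.Coprime r₁ m₁) (hrn : (1 + d * r₁) ^ n ≡ 1 [MOD d * m₁])
    (hs : ∑ i ∈ range n, (1 + d * r₁) ^ i = m₁ * k') :
    HasCyclicSchurMultiplier (PresentedGroup (metaRels (d * m₁) n (1 + d * r₁) (m₁ * l)))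
      (Nat.gcd l (Nat.gcd d k')) := by
  set g := Nat.gcd l (Nat.gcd d k') with hg
  have hg0 : 0 < g := Nat.gcd_pos_of_pos_right _ (Nat.gcd_pos_of_pos_left _ hd)
  have hm : 0 < d * m₁ := Nat.mul_pos hd hm₁
  have ht : m₁ * l * (1 + d * r₁) ≡ m₁ * l [MOD d * m₁] := by
    have h : m₁ * l * (1 + d * r₁) = m₁ * l + (d * m₁) * (l * r₁) := by ring
    unfold Nat.ModEq
    rw [h, Nat.add_mul_mod_self_left]
  have hfin : Finite (PresentedGroup (metaRels (d * m₁) n (1 + d * r₁) (m₁ * l))) :=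
    metaG_finite _ _ _ _ hm hn hrn
  have horda := metaG_orderOf (d * m₁) n (1 + d * r₁) (m₁ * l) hm hn hrn ht
  set π := PresentedGroup.mk (metaRels (d * m₁) n (1 + d * r₁) (m₁ * l)) with hπdef
  have hπ : Function.Surjective π := PresentedGroup.mk_surjective _
  set A := metaA (d * m₁) n (1 + d * r₁) (m₁ * l) with hA
  set B := metaB (d * m₁) n (1 + d * r₁) (m₁ * l) with hB
  have hpA : ceProj π A = π (FreeGroup.of true) := rfl
  have hpB : ceProj π B = π (FreeGroup.of false) := rfl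
  have hx : A ^ (d * m₁) ∈ center (CE π) := by
    apply ker_ceProj_le_center π
    rw [MonoidHom.mem_ker, map_pow, hpA]
    exact metaG_rel1 _ _ _ _
  have hy : B ^ n * (A ^ (m₁ * l))⁻¹ ∈ center (CE π) := by
    apply ker_ceProj_le_center π
    rw [MonoidHom.mem_ker, map_mul, map_inv, map_pow, map_pow, hpA, hpB, mul_inv_eq_one]
    exact metaG_rel2 _ _ _ _
  have hz : B * A * B⁻¹ * (A ^ (1 + d * r₁))⁻¹ ∈ center (CE π) := by
    apply ker_ceProj_le_center π
    rw [MonoidHom.mem_ker, map_mul, map_inv, map_pow, map_mul, map_mul, map_inv, hpA, hpB,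
      mul_inv_eq_one]
    exact metaG_rel3 _ _ _ _
  obtain ⟨hAc, hBc, hc1, hc2, hc3⟩ := meta_rel A B (d * m₁) n (1 + d * r₁) (m₁ * l) (by omega)
    hx hy hz
  set c := ⁅B, A⁆ with hc
  have hgen : closure {A, B} = (⊤ : Subgroup (CE π)) :=
    closure_pair_of_surjective (QuotientGroup.mk' (relComm π)) (QuotientGroup.mk'_surjective _)
  have hcomm : commutator (CE π) = zpowers c :=
    meta_commutator A B hgen (1 + d * r₁) ((1 + d * r₁) ^ (n - 1)) hAc hBc
      (pow_pow_eq_self_of_modEq hn hc1 hrn)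
  have hordc : orderOf c = m₁ * g := by
    apply Nat.dvd_antisymm
    · have h1 : orderOf c ∣ m₁ * d := (mul_comm d m₁) ▸ orderOf_dvd_of_pow_eq_one hc1
      have h2 : orderOf c ∣ m₁ * k' := hs ▸ orderOf_dvd_of_pow_eq_one hc2
      have h3 : orderOf c ∣ m₁ * l := orderOf_dvd_of_pow_eq_one hc3
      have h4 := Nat.dvd_gcd h3 (Nat.dvd_gcd h1 h2)
      rwa [Nat.gcd_mul_left, Nat.gcd_mul_left] at h4
    · exact meta_lower n d m₁ r₁ k' l hn hd hm₁ hcop hs _ (pow_orderOf_eq_one c)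
  have hpc : ceProj π c = (π (FreeGroup.of true)) ^ (d * r₁) := by
    have h3 : π (FreeGroup.of false) * π (FreeGroup.of true) * (π (FreeGroup.of false))⁻¹ =
      π (FreeGroup.of true) ^ (1 + d * r₁) := metaG_rel3 _ _ _ _
    rw [hc, map_commutatorElement, hpA, hpB, commutatorElement_def, h3, pow_add, pow_one]
    group
  have hζmem : c ^ m₁ ∈ mult π := by
    refine ⟨?_, ?_⟩
    · show ceProj π (c ^ m₁) = 1
      rw [map_pow, hpc, ← pow_mul]
      have : d * r₁ * m₁ = (d * m₁) * r₁ := by ring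
      have h1 : π (FreeGroup.of true) ^ (d * m₁) = 1 := metaG_rel1 _ _ _ _
      rw [this, pow_mul, h1, one_pow]
    · rw [hcomm]
      exact pow_mem (mem_zpowers c) _
  have hall : ∀ w : mult π, w ∈ zpowers (⟨c ^ m₁, hζmem⟩ : mult π) := by
    rintro ⟨w, hw1, hw2⟩
    rw [hcomm] at hw2
    obtain ⟨q, rfl⟩ := mem_zpowers_iff.mp hw2
    have h1 : (π (FreeGroup.of true)) ^ (((d * r₁ : ℕ) : ℤ) * q) = 1 := by
      rw [zpow_mul, zpow_natCast, ← hpc, ← map_zpow]
      exact hw1
    rw [← orderOf_dvd_iff_zpow_eq_one, horda] at h1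
    have h2 : (m₁ : ℤ) ∣ (r₁ : ℤ) * q := by
      have hd' : (d : ℤ) ≠ 0 := by exact_mod_cast hd.ne'
      apply Int.dvd_of_mul_dvd_mul_left hd'
      push_cast at h1
      rw [← mul_assoc]
      exact h1
    have h3 : (m₁ : ℤ) ∣ q := by
      have : IsCoprime (m₁ : ℤ) (r₁ : ℤ) := Nat.isCoprime_iff_coprime.mpr hcop.symm
      exact this.dvd_of_dvd_mul_left h2
    obtain ⟨q', rfl⟩ := h3
    refine mem_zpowers_iff.mpr ⟨q', ?_⟩
    apply Subtype.ext
    rw [Subgroup.coe_zpow]
    show (c ^ m₁) ^ q' = c ^ ((m₁ : ℤ) * q')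
    rw [zpow_mul, zpow_natCast]
  have hordζ : orderOf (⟨c ^ m₁, hζmem⟩ : mult π) = g := by
    rw [← Subgroup.orderOf_coe]
    show orderOf (c ^ m₁) = g
    rw [orderOf_pow_of_dvd hm₁.ne' (by rw [hordc]; exact Dvd.intro _ rfl), hordc,
      Nat.mul_div_cancel_left _ hm₁]
  have hcyc : IsCyclic (mult π) := ⟨⟨_, hall⟩⟩
  have hcard : Nat.card (mult π) = g := by
    rw [← hordζ]
    exact (orderOf_eq_card_of_forall_mem_zpowers hall).symm
  have e : mult π ≃* Multiplicative (ZMod g) := mulEquivOfCyclicCardEq (by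
    rw [hcard, Nat.card_congr Multiplicative.toAdd, Nat.card_zmod])
  exact hsm_of_mulEquiv (hasSchurMultiplier_mult π hπ) e

/-- Beyl's formula for the Schur multiplier of a metacyclic group. -/
theorem meta_multiplier (m n r l : ℕ) (hm : 0 < m) (hn : 0 < n) (hr : 0 < r)
    (hrn : r ^ n ≡ 1 [MOD m]) :
    HasCyclicSchurMultiplier (PresentedGroup (metaRels m n r (m * l / Nat.gcd m (r - 1))))
      (Nat.gcd l (Nat.gcd m (r - 1) * Nat.gcd m (∑ i ∈ Finset.range n, r ^ i) / m)) := by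
  obtain ⟨d, m₁, r₁, k', hd0, hm₁, hmd, hrd, hcop, hgcd, hs, ht, hh⟩ :=
    meta_arith m n r l hm hr hrn
  rw [hgcd, ht, hh]
  subst hmd hrd
  exact meta_multiplier_aux n d m₁ r₁ k' l hn hd0 hm₁ hcop hrn hs

end Cfsg.Agent.Lib.Helper41
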