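import Cfsg.Agent.Lib.Helper41.SchurMore

set_option autoImplicit false

namespace Cfsg.Agent.Lib.Helper41

open Subgroup
open scoped commutatorElement

universe u v w

section

variable {G : Type*} {X : Type*} {Q : Type*} [Group G] [Group X] [Group Q]

/-- In a perfect group, an element centralising the group modulo the centre is central. -/
lemma mem_center_of_perfect (hG : commutator G = ⊤) (g : G)
    (h : ∀ a : G, a⁻¹ * (g * a * g⁻¹) ∈ center G) : g ∈ center G := by
  have key : commutator G ≤ centralizer {g} := by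
    rw [commutator_def, Subgroup.commutator_le]
    intro a _ b _
    rw [mem_centralizer_singleton_iff]
    have h1 : g * ⁅a, b⁆ * g⁻¹ = ⁅a, b⁆ := by
      rw [conjugate_commutatorElement]
      have ha : g * a * g⁻¹ = a * (a⁻¹ * (g * a * g⁻¹)) := by group
      have hb : g * b * g⁻¹ = b * (b⁻¹ * (g * b * g⁻¹)) := by group
      rw [ha, hb, comm_mul_central_left _ _ _ (h a), comm_mul_central_right _ _ _ (h b)]
    rw [mul_inv_eq_iff_eq_mul] at h1
    exact h1.symm
  rw [hG] at key
  rw [mem_center_iff]
  intro a
  have := key (mem_top a)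
  rw [mem_centralizer_singleton_iff] at this
  exact this

/-- Two homomorphisms from a perfect group that agree modulo a central kernel are equal. -/
lemma hom_eq_of_perfect (hG : commutator G = ⊤) (ξ : X →* Q) (hc : ξ.ker ≤ center X)
    (η₁ η₂ : G →* X) (h : ξ.comp η₁ = ξ.comp η₂) : η₁ = η₂ := by
  have hz : ∀ g, (η₂ g)⁻¹ * η₁ g ∈ center X := by
    intro g
    apply hc
    have := DFunLike.congr_fun h g
    simp only [MonoidHom.comp_apply] at this
    rw [MonoidHom.mem_ker, map_mul, map_inv, this, inv_mul_cancel]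
  have key : commutator G ≤ η₁.eqLocus η₂ := by
    rw [commutator_def, Subgroup.commutator_le]
    intro a _ b _
    change η₁ ⁅a, b⁆ = η₂ ⁅a, b⁆
    rw [map_commutatorElement, map_commutatorElement]
    have ha : η₁ a = η₂ a * ((η₂ a)⁻¹ * η₁ a) := by group
    have hb : η₁ b = η₂ b * ((η₂ b)⁻¹ * η₁ b) := by group
    rw [ha, hb, comm_mul_central_left _ _ _ (hz a), comm_mul_central_right _ _ _ (hz b)]
  rw [hG] at key
  exact MonoidHom.ext fun g => key (mem_top g)

/-- A stem extension of a perfect group is perfect. -/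
lemma perfect_of_stem (σ : G →* Q) (hσ : IsStemExtension σ) (hQ : commutator Q = ⊤) :
    commutator G = ⊤ := by
  rw [eq_top_iff]
  intro g _
  obtain ⟨x, hx, hxg⟩ := exists_mem_commutator_of_surjective σ hσ.1
    (show σ g ∈ commutator Q from hQ ▸ mem_top _)
  have : g = x * (x⁻¹ * g) := by group
  rw [this]
  refine (commutator G).mul_mem hx (hσ.2.2 ?_)
  rw [MonoidHom.mem_ker, map_mul, map_inv, hxg, inv_mul_cancel]

end

end Cfsg.Agent.Lib.Helper41
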