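import Cfsg.Agent.Lib.Helper41.SchurBiExt

set_option autoImplicit false

namespace Cfsg.Agent.Lib.Helper41

open Subgroup TensorProduct
open scoped commutatorElement

universe u v w

lemma abOf_surjective (G : Type*) [Group G] :
    Function.Surjective (Abelianization.of : G →* Abelianization G) :=
  QuotientGroup.mk_surjective

section

variable (Q₁ : Type u) (Q₂ : Type v) [Group Q₁] [Group Q₂]

/-- The tensor product of the abelianizations. -/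
abbrev AbT : Type (max u v) :=
  TensorProduct ℤ (Additive (Abelianization Q₁)) (Additive (Abelianization Q₂))

/-- The tensor pairing. -/
def tPair : Q₁ →* Q₂ →* Multiplicative (AbT Q₁ Q₂) where
  toFun q₁ :=
    { toFun := fun q₂ => Multiplicative.ofAdd
        (Additive.ofMul (Abelianization.of q₁) ⊗ₜ[ℤ] Additive.ofMul (Abelianization.of q₂))
      map_one' := by simp
      map_mul' := fun x y => by simp [TensorProduct.tmul_add] }
  map_one' := by ext; simp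
  map_mul' x y := by ext; simp [TensorProduct.add_tmul]

lemma tPair_apply (q₁ : Q₁) (q₂ : Q₂) : tPair Q₁ Q₂ q₁ q₂ = Multiplicative.ofAdd
    (Additive.ofMul (Abelianization.of q₁) ⊗ₜ[ℤ] Additive.ofMul (Abelianization.of q₂)) := rfl

instance finite_AbT [Finite Q₁] [Finite Q₂] : Finite (AbT Q₁ Q₂) := by
  have f1 : Finite (Additive (Abelianization Q₁)) :=
    Finite.of_surjective (fun q : Q₁ => Additive.ofMul (Abelianization.of q))
      (fun x => by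
        obtain ⟨q, hq⟩ := abOf_surjective Q₁ x.toMul
        exact ⟨q, congrArg Additive.ofMul hq⟩)
  have f2 : Finite (Additive (Abelianization Q₂)) :=
    Finite.of_surjective (fun q : Q₂ => Additive.ofMul (Abelianization.of q))
      (fun x => by
        obtain ⟨q, hq⟩ := abOf_surjective Q₂ x.toMul
        exact ⟨q, congrArg Additive.ofMul hq⟩)
  have m1 : Module.Finite ℤ (Additive (Abelianization Q₁)) := Module.Finite.of_finite
  have m2 : Module.Finite ℤ (Additive (Abelianization Q₂)) := Module.Finite.of_finite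
  have m3 : Module.Finite ℤ (AbT Q₁ Q₂) := Module.Finite.tensorProduct ℤ _ _
  have h1 : AddGroup.FG (AbT Q₁ Q₂) := Module.Finite.iff_addGroup_fg.mp m3
  apply AddCommGroup.finite_of_fg_isAddTorsion
  intro x
  rw [isOfFinAddOrder_iff_nsmul_eq_zero]
  refine ⟨Nat.card (Additive (Abelianization Q₁)), Nat.card_pos, ?_⟩
  induction x using TensorProduct.induction_on with
  | zero => simp
  | tmul m n =>
    rw [← natCast_zsmul, TensorProduct.smul_tmul', natCast_zsmul, card_nsmul_eq_zero',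
      TensorProduct.zero_tmul]
  | add x y hx hy => rw [nsmul_add, hx, hy, add_zero]

end

section P1

variable {Q₁ : Type u} {Q₂ : Type v} [Group Q₁] [Group Q₂] {Γ₁ : Type u} {Γ₂ : Type v}
  [Group Γ₁] [Group Γ₂] (σ₁ : Γ₁ →* Q₁) (σ₂ : Γ₂ →* Q₂)

/-- The tensor pairing pulled back to the covers. -/
def cPair : Γ₁ →* Γ₂ →* Multiplicative (AbT Q₁ Q₂) :=
  (MonoidHom.compHom' σ₂).comp ((tPair Q₁ Q₂).comp σ₁)

lemma cPair_apply (g : Γ₁) (h : Γ₂) : cPair σ₁ σ₂ g h = tPair Q₁ Q₂ (σ₁ g) (σ₂ h) := rfl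

/-- The candidate cover of the product. -/
def prodCov : BiExt (cPair σ₁ σ₂) →* Q₁ × Q₂ := (σ₁.prodMap σ₂).comp (BiExt.proj _)

lemma mem_ker_prodCov (p : BiExt (cPair σ₁ σ₂)) :
    p ∈ (prodCov σ₁ σ₂).ker ↔ p.fst ∈ σ₁.ker ∧ p.snd ∈ σ₂.ker := by
  rw [MonoidHom.mem_ker, MonoidHom.mem_ker, MonoidHom.mem_ker]
  change (σ₁ p.fst, σ₂ p.snd) = (1, 1) ↔ _
  exact Prod.mk.injEq _ _ _ _ ▸ Iff.rfl

lemma β_ker_left {g : Γ₁} (hg : g ∈ σ₁.ker) (h : Γ₂) : BiExt.β (cPair σ₁ σ₂) g h = 0 := by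
  rw [BiExt.β, cPair_apply, MonoidHom.mem_ker.mp hg]; simp

lemma β_ker_right (g : Γ₁) {h : Γ₂} (hh : h ∈ σ₂.ker) : BiExt.β (cPair σ₁ σ₂) g h = 0 := by
  rw [BiExt.β, cPair_apply, MonoidHom.mem_ker.mp hh]; simp

lemma inT_mem_commutator (h₁ : Function.Surjective σ₁) (h₂ : Function.Surjective σ₂)
    (t : AbT Q₁ Q₂) :
    BiExt.inT (cPair σ₁ σ₂) (Multiplicative.ofAdd t) ∈ commutator (BiExt (cPair σ₁ σ₂)) := by
  induction t using TensorProduct.induction_on with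
  | zero =>
    have : BiExt.inT (cPair σ₁ σ₂) (Multiplicative.ofAdd 0) = 1 := map_one _
    rw [this]; exact one_mem _
  | tmul m n =>
    obtain ⟨q₁, hq₁⟩ := abOf_surjective Q₁ m.toMul
    obtain ⟨q₂, hq₂⟩ := abOf_surjective Q₂ n.toMul
    obtain ⟨g, rfl⟩ := h₁ q₁
    obtain ⟨h, rfl⟩ := h₂ q₂
    have : Multiplicative.ofAdd (m ⊗ₜ[ℤ] n) = cPair σ₁ σ₂ g h := by
      rw [cPair_apply, tPair_apply, hq₁, hq₂]; rfl
    rw [this, ← BiExt.comm_inl_inr]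
    exact Subgroup.commutator_mem_commutator (mem_top _) (mem_top _)
  | add x y hx hy =>
    rw [ofAdd_add, map_mul]; exact mul_mem hx hy

theorem prodCov_stem (h₁ : IsStemExtension σ₁) (h₂ : IsStemExtension σ₂) :
    IsStemExtension (prodCov σ₁ σ₂) := by
  refine ⟨?_, ?_, ?_⟩
  · rintro ⟨q₁, q₂⟩
    obtain ⟨g, rfl⟩ := h₁.1 q₁
    obtain ⟨h, rfl⟩ := h₂.1 q₂
    exact ⟨⟨g, h, 0⟩, rfl⟩
  · intro p hp
    obtain ⟨hp1, hp2⟩ := (mem_ker_prodCov σ₁ σ₂ p).mp hp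
    rw [mem_center_iff]
    intro q
    ext
    · exact mem_center_iff.mp (h₁.2.1 hp1) q.fst
    · exact mem_center_iff.mp (h₂.2.1 hp2) q.snd
    · simp only [BiExt.mul_t, β_ker_left σ₁ σ₂ hp1, β_ker_right σ₁ σ₂ _ hp2]; abel
  · intro p hp
    obtain ⟨hp1, hp2⟩ := (mem_ker_prodCov σ₁ σ₂ p).mp hp
    rw [BiExt.eq_mul_mul _ p]
    exact mul_mem (mul_mem (map_mem_commutator _ (h₁.2.2 hp1)) (map_mem_commutator _ (h₂.2.2 hp2)))
      (inT_mem_commutator σ₁ σ₂ h₁.1 h₂.1 _)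

/-- The kernel of the candidate cover. -/
def kerProdCovEquiv :
    (prodCov σ₁ σ₂).ker ≃* σ₁.ker × σ₂.ker × Multiplicative (AbT Q₁ Q₂) where
  toFun p := (⟨p.1.fst, ((mem_ker_prodCov σ₁ σ₂ p.1).mp p.2).1⟩,
    ⟨p.1.snd, ((mem_ker_prodCov σ₁ σ₂ p.1).mp p.2).2⟩, Multiplicative.ofAdd p.1.t)
  invFun x := ⟨⟨x.1.1, x.2.1.1, x.2.2.toAdd⟩, (mem_ker_prodCov σ₁ σ₂ _).mpr ⟨x.1.2, x.2.1.2⟩⟩
  left_inv p := rfl
  right_inv x := rfl
  map_mul' p q := by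
    have h := β_ker_left σ₁ σ₂ ((mem_ker_prodCov σ₁ σ₂ p.1).mp p.2).1 q.1.snd
    refine Prod.ext rfl (Prod.ext rfl ?_)
    change Multiplicative.ofAdd (p.1.t + q.1.t + BiExt.β (cPair σ₁ σ₂) p.1.fst q.1.snd) = _
    rw [h, add_zero]; rfl

end P1

section P2

lemma comm_mul_left_of_central {Γ : Type*} [Group Γ] (a b c : Γ) (h : ⁅b, c⁆ ∈ center Γ) :
    ⁅a * b, c⁆ = ⁅a, c⁆ * ⁅b, c⁆ := by
  rw [commutatorElement_mul_left_eq_conj_mul, mem_center_iff.mp h a, mul_inv_cancel_right,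
    mem_center_iff.mp h]

lemma comm_mul_right_of_central {Γ : Type*} [Group Γ] (a b c : Γ) (h : ⁅a, c⁆ ∈ center Γ) :
    ⁅a, b * c⁆ = ⁅a, b⁆ * ⁅a, c⁆ := by
  rw [commutatorElement_mul_right_eq_mul_conj, mul_assoc ⁅a, b⁆, mem_center_iff.mp h b,
    mul_assoc, mul_inv_cancel_right]

/-- One factor of the upper bound. -/
lemma part_surj {Q : Type u} [Group Q] {A : Type w} [CommGroup A] (hA : HasSchurMultiplier Q A)
    {Γ : Type v} [Group Γ] (N : Subgroup Γ) (τ : N →* Q) (hτ : Function.Surjective τ)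
    (K : Subgroup Γ) (hK : K ≤ center Γ) (hker : ∀ x : N, x ∈ τ.ker ↔ (x : Γ) ∈ K) :
    ∃ ψ : A →* center Γ, (∀ a, (ψ a : Γ) ∈ K) ∧
      ∀ k, k ∈ K → k ∈ ⁅N, N⁆ → ∃ a, (ψ a : Γ) = k := by
  have hc : τ.ker ≤ center N := by
    intro x hx
    have h1 : (x : Γ) ∈ center Γ := hK ((hker x).mp hx)
    rw [mem_center_iff]
    intro y
    exact Subtype.ext (mem_center_iff.mp h1 y)
  obtain ⟨φ, hφ⟩ := hsm_surj_of_central hA τ hτ hc
  have hmem : ∀ a, ((φ a : N) : Γ) ∈ K := fun a => (hker _).mp (φ a).2.1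
  refine ⟨((N.subtype.comp (τ.ker ⊓ commutator N : Subgroup N).subtype).comp φ).codRestrict _
    (fun a => hK (hmem a)), hmem, ?_⟩
  intro k hk hk'
  rw [← Subgroup.map_subtype_commutator] at hk'
  obtain ⟨x, hx, rfl⟩ := hk'
  obtain ⟨a, ha⟩ := hφ ⟨x, (hker x).mpr hk, hx⟩
  refine ⟨a, ?_⟩
  change ((φ a : N) : Γ) = x
  rw [ha]

/-- A bimultiplicative map to a commutative group factors through the tensor product of the
abelianizations. -/
lemma exists_tensor_lift {Q₁ : Type u} {Q₂ : Type v} [Group Q₁] [Group Q₂] {Z : Type w}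
    [CommGroup Z] (P : Q₁ →* Q₂ →* Z) :
    ∃ ψ : Multiplicative (AbT Q₁ Q₂) →* Z, ∀ q₁ q₂, ψ (tPair Q₁ Q₂ q₁ q₂) = P q₁ q₂ := by
  let h₂ : Q₁ →* (Abelianization Q₂ →* Z) :=
    { toFun := fun q₁ => Abelianization.lift (P q₁)
      map_one' := by
        apply Abelianization.hom_ext; ext; simp
      map_mul' := fun x y => by
        apply Abelianization.hom_ext; ext; simp }
  let h₃ : Abelianization Q₁ →* (Abelianization Q₂ →* Z) := Abelianization.lift h₂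
  let f : Additive (Abelianization Q₁) →+ Additive (Abelianization Q₂) →+ Additive Z :=
    { toFun := fun x => MonoidHom.toAdditive (h₃ x.toMul)
      map_zero' := by ext; simp
      map_add' := fun x y => by ext; simp }
  let βT : AbT Q₁ Q₂ →+ Additive Z := TensorProduct.liftAddHom f (by
    intro r m n
    rw [map_zsmul, map_zsmul]; rfl)
  refine ⟨AddMonoidHom.toMultiplicativeLeft βT, ?_⟩
  intro q₁ q₂
  change (h₃ (Abelianization.of q₁)) (Abelianization.of q₂) = P q₁ q₂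
  simp [h₃, h₂]

end P2

section P3

open scoped IsMulCommutative

theorem prod_upper {Q₁ : Type u} {Q₂ : Type v} [Group Q₁] [Group Q₂] {A B : Type w}
    [CommGroup A] [CommGroup B] (hA : HasSchurMultiplier Q₁ A) (hB : HasSchurMultiplier Q₂ B)
    {Γ : Type*} [Group Γ] (σ : Γ →* Q₁ × Q₂) (hσ : IsStemExtension σ) :
    ∃ Φ : A × B × Multiplicative (AbT Q₁ Q₂) →* σ.ker, Function.Surjective Φ := by
  let Γ₁ : Subgroup Γ := ((MonoidHom.snd Q₁ Q₂).comp σ).ker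
  let Γ₂ : Subgroup Γ := ((MonoidHom.fst Q₁ Q₂).comp σ).ker
  have hm1 : ∀ x, x ∈ Γ₁ ↔ (σ x).2 = 1 := fun x => Iff.rfl
  have hm2 : ∀ x, x ∈ Γ₂ ↔ (σ x).1 = 1 := fun x => Iff.rfl
  let τ₁ : Γ₁ →* Q₁ := ((MonoidHom.fst Q₁ Q₂).comp σ).comp Γ₁.subtype
  let τ₂ : Γ₂ →* Q₂ := ((MonoidHom.snd Q₁ Q₂).comp σ).comp Γ₂.subtype
  have hτ₁ : Function.Surjective τ₁ := by
    intro q
    obtain ⟨x, hx⟩ := hσ.1 (q, 1)
    exact ⟨⟨x, by rw [hm1, hx]⟩, by change (σ x).1 = q; rw [hx]⟩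
  have hτ₂ : Function.Surjective τ₂ := by
    intro q
    obtain ⟨x, hx⟩ := hσ.1 (1, q)
    exact ⟨⟨x, by rw [hm2, hx]⟩, by change (σ x).2 = q; rw [hx]⟩
  have hker₁ : ∀ x : Γ₁, x ∈ τ₁.ker ↔ (x : Γ) ∈ σ.ker := by
    intro x
    constructor
    · intro h
      exact Prod.ext h x.2
    · intro h
      change (σ x).1 = 1
      rw [MonoidHom.mem_ker.mp h]; rfl
  have hker₂ : ∀ x : Γ₂, x ∈ τ₂.ker ↔ (x : Γ) ∈ σ.ker := by
    intro x
    constructor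
    · intro h
      exact Prod.ext x.2 h
    · intro h
      change (σ x).2 = 1
      rw [MonoidHom.mem_ker.mp h]; rfl
  obtain ⟨ψ₁, hψ₁K, hψ₁⟩ := part_surj hA Γ₁ τ₁ hτ₁ σ.ker hσ.2.1 hker₁
  obtain ⟨ψ₂, hψ₂K, hψ₂⟩ := part_surj hB Γ₂ τ₂ hτ₂ σ.ker hσ.2.1 hker₂
  choose s₁ hs₁ using fun q : Q₁ => hσ.1 (q, 1)
  choose s₂ hs₂ using fun q : Q₂ => hσ.1 (1, q)
  have hck : ∀ x y, (σ x).2 = 1 → (σ y).1 = 1 → ⁅x, y⁆ ∈ σ.ker := by
    intro x y hx hy
    rw [MonoidHom.mem_ker, map_commutatorElement, commutatorElement_eq_one_iff_mul_comm]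
    apply Prod.ext
    · simp [hy]
    · simp [hx]
  have KF : ∀ x y q₁ q₂, σ x = (q₁, 1) → σ y = (1, q₂) → ⁅x, y⁆ = ⁅s₁ q₁, s₂ q₂⁆ := by
    intro x y q₁ q₂ hx hy
    have h1 : (s₁ q₁)⁻¹ * x ∈ center Γ := by
      apply hσ.2.1
      rw [MonoidHom.mem_ker, map_mul, map_inv, hs₁, hx, inv_mul_cancel]
    have h2 : (s₂ q₂)⁻¹ * y ∈ center Γ := by
      apply hσ.2.1
      rw [MonoidHom.mem_ker, map_mul, map_inv, hs₂, hy, inv_mul_cancel]
    have e1 : x = s₁ q₁ * ((s₁ q₁)⁻¹ * x) := by group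
    have e2 : y = s₂ q₂ * ((s₂ q₂)⁻¹ * y) := by group
    rw [e1, e2, comm_mul_central_left _ _ _ h1, comm_mul_central_right _ _ _ h2]
  have hPc : ∀ q₁ q₂, ⁅s₁ q₁, s₂ q₂⁆ ∈ σ.ker := fun q₁ q₂ =>
    hck _ _ (by rw [hs₁]) (by rw [hs₂])
  let P : Q₁ →* Q₂ →* center Γ := MonoidHom.mk'
    (fun q₁ => MonoidHom.mk' (fun q₂ => ⟨⁅s₁ q₁, s₂ q₂⁆, hσ.2.1 (hPc q₁ q₂)⟩) (by
      intro q q'
      apply Subtype.ext
      change ⁅s₁ q₁, s₂ (q * q')⁆ = ⁅s₁ q₁, s₂ q⁆ * ⁅s₁ q₁, s₂ q'⁆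
      rw [← comm_mul_right_of_central _ _ _ (hσ.2.1 (hPc q₁ q'))]
      exact (KF _ _ q₁ (q * q') (hs₁ q₁) (by rw [map_mul, hs₂, hs₂]; simp)).symm)) (by
    intro q q'
    refine MonoidHom.ext fun r => ?_
    apply Subtype.ext
    change ⁅s₁ (q * q'), s₂ r⁆ = ⁅s₁ q, s₂ r⁆ * ⁅s₁ q', s₂ r⁆
    rw [← comm_mul_left_of_central _ _ _ (hσ.2.1 (hPc q' r))]
    exact (KF _ _ (q * q') r (by rw [map_mul, hs₁, hs₁]; simp) (hs₂ r)).symm)
  have hP : ∀ q₁ q₂, ((P q₁ q₂ : center Γ) : Γ) = ⁅s₁ q₁, s₂ q₂⁆ := fun _ _ => rfl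
  obtain ⟨ψT, hψT⟩ := exists_tensor_lift P
  have hψTK : ∀ t : AbT Q₁ Q₂, ((ψT (Multiplicative.ofAdd t) : center Γ) : Γ) ∈ σ.ker := by
    intro t
    induction t using TensorProduct.induction_on with
    | zero =>
      have : ψT (Multiplicative.ofAdd 0) = 1 := map_one _
      rw [this]; exact one_mem _
    | tmul m n =>
      obtain ⟨q₁, hq₁⟩ := abOf_surjective Q₁ m.toMul
      obtain ⟨q₂, hq₂⟩ := abOf_surjective Q₂ n.toMul
      have : Multiplicative.ofAdd (m ⊗ₜ[ℤ] n) = tPair Q₁ Q₂ q₁ q₂ := by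
        rw [tPair_apply, hq₁, hq₂]; rfl
      rw [this, hψT, hP]; exact hPc _ _
    | add x y hx hy =>
      rw [ofAdd_add, map_mul]; exact mul_mem hx hy
  let W : Subgroup Γ := (ψT.range).map (center Γ).subtype
  have hWc : W ≤ center Γ := by
    rintro _ ⟨z, -, rfl⟩; exact z.2
  have hWn : W.Normal := normal_of_le_center W hWc
  have hPW : ∀ q₁ q₂, ⁅s₁ q₁, s₂ q₂⁆ ∈ W := fun q₁ q₂ =>
    ⟨P q₁ q₂, ⟨_, hψT q₁ q₂⟩, rfl⟩
  let D : Subgroup Γ := ⁅Γ₁, Γ₁⁆ ⊔ ⁅Γ₂, Γ₂⁆ ⊔ W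
  have hgen : closure ((Γ₁ : Set Γ) ∪ (Γ₂ : Set Γ)) = ⊤ := by
    rw [eq_top_iff]
    intro x _
    have e1 : x = s₁ (σ x).1 * ((s₁ (σ x).1)⁻¹ * x) := by group
    rw [e1]
    refine mul_mem (subset_closure (Or.inl ?_)) (subset_closure (Or.inr ?_))
    · change (σ (s₁ (σ x).1)).2 = 1
      rw [hs₁]
    · change (σ ((s₁ (σ x).1)⁻¹ * x)).1 = 1
      rw [map_mul, map_inv, hs₁]; simp
  have hD : commutator Γ ≤ D := by
    refine commutator_le_of_generators D _ hgen ?_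
    have h12 : ∀ x ∈ Γ₁, ∀ y ∈ Γ₂, ⁅x, y⁆ ∈ D := by
      intro x hx y hy
      have hx' : σ x = ((σ x).1, 1) := Prod.ext rfl hx
      have hy' : σ y = (1, (σ y).2) := Prod.ext hy rfl
      rw [KF x y _ _ hx' hy']
      exact mem_sup_right (hPW _ _)
    rintro x (hx | hx) y (hy | hy)
    · exact mem_sup_left (mem_sup_left (Subgroup.commutator_mem_commutator hx hy))
    · exact h12 x hx y hy
    · rw [← commutatorElement_inv]; exact D.inv_mem (h12 y hy x hx)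
    · exact mem_sup_left (mem_sup_right (Subgroup.commutator_mem_commutator hx hy))
  let Φ₀ : A × B × Multiplicative (AbT Q₁ Q₂) →* center Γ := ψ₁.coprod (ψ₂.coprod ψT)
  have hΦ₀ : ∀ x, ((Φ₀ x : center Γ) : Γ) =
      (ψ₁ x.1 : Γ) * ((ψ₂ x.2.1 : Γ) * (ψT x.2.2 : Γ)) := fun x => rfl
  refine ⟨((center Γ).subtype.comp Φ₀).codRestrict _ (fun x => ?_), ?_⟩
  · change ((Φ₀ x : center Γ) : Γ) ∈ σ.ker
    rw [hΦ₀]
    exact mul_mem (hψ₁K _) (mul_mem (hψ₂K _) (hψTK x.2.2.toAdd))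
  · rintro ⟨k, hk⟩
    have hkD := hD (hσ.2.2 hk)
    rw [Subgroup.mem_sup_of_normal_right] at hkD
    obtain ⟨uv, huv, w, hw, rfl⟩ := hkD
    rw [Subgroup.mem_sup_of_normal_right] at huv
    obtain ⟨u, hu, v, hv, rfl⟩ := huv
    obtain ⟨z, ⟨t, rfl⟩, rfl⟩ := hw
    have hu1 : u ∈ Γ₁ := Subgroup.commutator_le_self _ hu
    have hv2 : v ∈ Γ₂ := Subgroup.commutator_le_self _ hv
    have hw' : σ ((center Γ).subtype (ψT t)) = 1 := hψTK t.toAdd
    have huv1 : σ u * σ v = 1 := by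
      have : σ (u * v * (center Γ).subtype (ψT t)) = 1 := hk
      rwa [map_mul, hw', mul_one, map_mul] at this
    have hu' : u ∈ σ.ker := by
      apply Prod.ext
      · have := congrArg Prod.fst huv1
        have hv2' : (σ v).1 = 1 := hv2
        simpa [hv2'] using this
      · exact hu1
    have hv' : v ∈ σ.ker := by
      apply Prod.ext
      · exact hv2
      · have := congrArg Prod.snd huv1
        have hu1' : (σ u).2 = 1 := hu1
        simpa [hu1'] using this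
    obtain ⟨a, ha⟩ := hψ₁ u hu' hu
    obtain ⟨b, hb⟩ := hψ₂ v hv' hv
    refine ⟨(a, b, t), Subtype.ext ?_⟩
    change ((Φ₀ (a, b, t) : center Γ) : Γ) = u * v * (center Γ).subtype (ψT t)
    rw [hΦ₀, ha, hb, mul_assoc]; rfl

end P3

end Cfsg.Agent.Lib.Helper41
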