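import Cfsg.Agent.Lib.Helper41.SchurCore
import Mathlib.GroupTheory.Rank
import Mathlib.GroupTheory.PresentedGroup
import Mathlib.LinearAlgebra.Dimension.Localization
import Mathlib.LinearAlgebra.Dimension.RankNullity
import Mathlib.LinearAlgebra.FreeModule.PID

set_option autoImplicit false

namespace Cfsg.Agent.Lib.Helper41

open Subgroup
open scoped commutatorElement

universe u v w

/-- An image of a free abelian group of rank `k` is generated by `k` elements. -/
lemma rank_le_of_basis {A : Type*} [Group A] [Group.FG A] {M : Type*} [AddCommGroup M] {k : ℕ}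
    (b : Module.Basis (Fin k) ℤ M) (χ : Multiplicative M →* A) (hχ : Function.Surjective χ) :
    Group.rank A ≤ k := by
  classical
  let S : Finset A := Finset.univ.image (fun i => χ (Multiplicative.ofAdd (b i)))
  have hS : S.card ≤ k := by
    have := Finset.card_image_le (s := (Finset.univ : Finset (Fin k)))
      (f := fun i => χ (Multiplicative.ofAdd (b i)))
    simpa using this
  refine le_trans (Group.rank_le (S := S) ?_) hS
  rw [eq_top_iff]
  intro a _
  obtain ⟨m, rfl⟩ := hχ a
  have hm : Multiplicative.toAdd m ∈ AddSubgroup.closure (Set.range b) := by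
    have h1 : Multiplicative.toAdd m ∈ Submodule.span ℤ (Set.range b) := by
      rw [b.span_eq]; trivial
    rw [← Submodule.mem_toAddSubgroup, Submodule.span_int_eq_addSubgroupClosure] at h1
    exact h1
  have key : ∀ x ∈ AddSubgroup.closure (Set.range b),
      χ (Multiplicative.ofAdd x) ∈ closure (S : Set A) := by
    intro x hx
    induction hx using AddSubgroup.closure_induction with
    | mem x hx =>
      obtain ⟨i, rfl⟩ := hx
      apply Subgroup.subset_closure
      simp only [S, Finset.coe_image, Finset.coe_univ, Set.image_univ]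
      exact ⟨i, rfl⟩
    | zero => rw [ofAdd_zero, map_one]; exact one_mem _
    | add x y _ _ hx hy => rw [ofAdd_add, map_mul]; exact mul_mem hx hy
    | neg x _ hx => rw [ofAdd_neg, map_inv]; exact inv_mem hx
  exact key _ hm

lemma fgAb_surjective (X : Type w) : Function.Surjective (fgAb X) := by
  intro a
  obtain ⟨f, hf⟩ := QuotientGroup.mk_surjective
    ((MulEquiv.multiplicativeAdditive (Abelianization (FreeGroup X))) a)
  refine ⟨f, ?_⟩
  exact (MulEquiv.symm_apply_eq
    (MulEquiv.multiplicativeAdditive (Abelianization (FreeGroup X)))).mpr hf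

/-- The multiplier of a finite group given by `n` generators and `r` relators is generated by
`r - n` elements. -/
theorem rank_mult_le {X : Type w} [Fintype X] {Q : Type u} [Group Q] [Finite Q]
    (π : FreeGroup X →* Q) {ι : Type*} [Fintype ι] (rel : ι → FreeGroup X)
    (hrel : normalClosure (Set.range rel) = π.ker) :
    Group.rank (mult π) ≤ Fintype.card ι - Fintype.card X := by
  classical
  set K := (ceProj π).ker with hK
  have hKc : K ≤ center (CE π) := ker_ceProj_le_center π
  let _ : CommGroup K :=
    { (inferInstance : Group K) with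
      mul_comm := fun a c => Subtype.ext (by
        have := mem_center_iff.mp (hKc a.2) c
        simpa using this.symm) }
  have hrelK : ∀ i, (QuotientGroup.mk (rel i) : CE π) ∈ K := fun i => by
    have : rel i ∈ π.ker := hrel ▸ subset_normalClosure ⟨i, rfl⟩
    exact this
  let v : ι → Additive K := fun i => Additive.ofMul ⟨QuotientGroup.mk (rel i), hrelK i⟩
  let Φ : (ι → ℤ) →ₗ[ℤ] Additive K := Fintype.linearCombination ℤ v
  have hΦ : Function.Surjective Φ := by
    rw [← LinearMap.range_eq_top, Fintype.range_linearCombination, eq_top_iff]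
    intro x _
    let N : Subgroup (FreeGroup X) :=
      ((AddSubgroup.toSubgroup' (Submodule.span ℤ (Set.range v)).toAddSubgroup).map K.subtype).comap
        (QuotientGroup.mk' (relComm π))
    have hNn : N.Normal := by
      have : ((AddSubgroup.toSubgroup'
          (Submodule.span ℤ (Set.range v)).toAddSubgroup).map K.subtype).Normal := by
        apply normal_of_le_center
        rintro _ ⟨y, -, rfl⟩
        exact hKc y.2
      exact this.comap _
    have hle : π.ker ≤ N := by
      rw [← hrel]
      apply normalClosure_le_normal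
      rintro _ ⟨i, rfl⟩
      have hv : v i ∈ Submodule.span ℤ (Set.range v) := Submodule.subset_span ⟨i, rfl⟩
      exact ⟨⟨QuotientGroup.mk (rel i), hrelK i⟩, hv, rfl⟩
    obtain ⟨f, hf⟩ := QuotientGroup.mk_surjective (x.toMul.1)
    have hfk : f ∈ π.ker := by
      have : (QuotientGroup.mk f : CE π) ∈ K := hf ▸ x.toMul.2
      exact this
    obtain ⟨y, hy, hyf⟩ := hle hfk
    have : y = x.toMul := Subtype.ext (hyf.trans hf)
    rw [this] at hy
    exact hy
  let Ψ : Additive K →ₗ[ℤ] FreeAbelianGroup X :=
    (MonoidHom.toAdditiveLeft ((ceAb π).comp K.subtype)).toIntLinearMap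
  have hΨ : ∀ x : K, Ψ (Additive.ofMul x) = Multiplicative.toAdd (ceAb π x.1) := fun x => rfl
  let T : (ι → ℤ) →ₗ[ℤ] FreeAbelianGroup X := Ψ ∘ₗ Φ
  have hfree : Module.Free ℤ (FreeAbelianGroup X) := Module.Free.of_basis (fabBasis X)
  have hfin : Module.Finite ℤ (FreeAbelianGroup X) := Module.Finite.of_basis (fabBasis X)
  have hn : Module.finrank ℤ (FreeAbelianGroup X) = Fintype.card X :=
    Module.finrank_eq_card_basis (fabBasis X)
  have he0 : (Nat.card Q : ℤ) ≠ 0 := by exact_mod_cast Nat.card_pos.ne'
  let mE : FreeAbelianGroup X →ₗ[ℤ] FreeAbelianGroup X := (Nat.card Q : ℤ) • LinearMap.id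
  have hmE : Function.Injective mE := by
    intro a b hab
    have : (Nat.card Q : ℤ) • a = (Nat.card Q : ℤ) • b := hab
    exact smul_right_injective _ he0 this
  have hrange : LinearMap.range mE ≤ LinearMap.range T := by
    rintro _ ⟨a, rfl⟩
    obtain ⟨f, hf⟩ := fgAb_surjective X (Multiplicative.ofAdd a)
    have hfe : (QuotientGroup.mk (f ^ Nat.card Q) : CE π) ∈ K := by
      show π (f ^ Nat.card Q) = 1
      rw [map_pow, pow_card_eq_one']
    obtain ⟨c, hc⟩ := hΦ (Additive.ofMul ⟨QuotientGroup.mk (f ^ Nat.card Q), hfe⟩)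
    refine ⟨c, ?_⟩
    show Ψ (Φ c) = (Nat.card Q : ℤ) • a
    rw [hc, hΨ]
    show Multiplicative.toAdd (fgAb X (f ^ Nat.card Q)) = _
    rw [map_pow, hf]
    simp
  have h1 : Fintype.card X ≤ Module.finrank ℤ (LinearMap.range T) := by
    rw [← hn, ← LinearMap.finrank_range_of_inj hmE]
    exact Submodule.finrank_mono hrange
  have h2 : Module.finrank ℤ (LinearMap.range T) + Module.finrank ℤ (LinearMap.ker T) =
      Fintype.card ι := by
    rw [← T.quotKerEquivRange.finrank_eq, Submodule.finrank_quotient_add_finrank]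
    simp
  obtain ⟨k, ⟨bN⟩⟩ := Submodule.nonempty_basis_of_pid (Pi.basisFun ℤ ι) (LinearMap.ker T)
  have hk : Module.finrank ℤ (LinearMap.ker T) = k := by
    rw [Module.finrank_eq_card_basis bN]; simp
  have hmem : ∀ c : LinearMap.ker T, (Φ c.1).toMul.1 ∈ mult π := by
    intro c
    refine ⟨(Φ c.1).toMul.2, ?_⟩
    rw [← ker_ceAb]
    have : Ψ (Φ c.1) = 0 := c.2
    exact this
  let χ : Multiplicative (LinearMap.ker T) →* mult π :=
    { toFun := fun c => ⟨(Φ (Multiplicative.toAdd c).1).toMul.1, hmem _⟩
      map_one' := by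
        apply Subtype.ext
        simp
      map_mul' := fun a b => by
        apply Subtype.ext
        simp }
  have hχ : Function.Surjective χ := by
    intro m
    obtain ⟨c, hc⟩ := hΦ (Additive.ofMul ⟨m.1, m.2.1⟩)
    have hcT : c ∈ LinearMap.ker T := by
      show Ψ (Φ c) = 0
      rw [hc, hΨ]
      have : m.1 ∈ (ceAb π).ker := by rw [ker_ceAb]; exact m.2.2
      exact this
    refine ⟨Multiplicative.ofAdd ⟨c, hcT⟩, Subtype.ext ?_⟩
    show (Φ c).toMul.1 = m.1
    rw [hc]
    rfl
  have := rank_le_of_basis bN χ hχ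
  omega

end Cfsg.Agent.Lib.Helper41
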