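import Cfsg.Agent.Lib.Helper41.SchurUnique
import Cfsg.Agent.Lib.Helper41.SchurProj
import Mathlib.GroupTheory.FiniteAbelian.Basic

set_option autoImplicit false

namespace Cfsg.Agent.Lib.Helper41

open Subgroup
open scoped commutatorElement

universe u v w

lemma pb_ext {Γ Δ Q : Type*} [Group Γ] [Group Δ] [Group Q] (σ : Γ →* Q) (τ : Δ →* Q)
    {y y' : pb σ τ} (h1 : pbFst σ τ y = pbFst σ τ y') (h2 : pbSnd σ τ y = pbSnd σ τ y') : y = y' :=
  Subtype.ext (Prod.ext h1 h2)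

/-- Reduction mod `n`, multiplicatively. -/
def redZ (n : ℕ) : Multiplicative ℤ →* Multiplicative (ZMod n) :=
  AddMonoidHom.toMultiplicative (Int.castAddHom (ZMod n))

lemma redZ_surjective (n : ℕ) : Function.Surjective (redZ n) := by
  intro x
  obtain ⟨k, hk⟩ := ZMod.intCast_surjective (Multiplicative.toAdd x)
  exact ⟨Multiplicative.ofAdd k, by
    show Multiplicative.ofAdd ((k : ℤ) : ZMod n) = x
    rw [hk]; rfl⟩

section Twist

variable {Γ : Type u} {Q : Type v} [Group Γ] [Group Q] (σ : Γ →* Q) (n : ℕ)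
  (χ : Q →* Multiplicative (ZMod n)) (a₀ : σ.ker)

/-- The fibre product of `Γ` and `ℤ` over `ZMod n`. -/
abbrev Tw : Subgroup (Γ × Multiplicative ℤ) := pb (χ.comp σ) (redZ n)

/-- The element `(a₀⁻¹, n)`. -/
def twElt : Tw σ n χ := ⟨(a₀.1⁻¹, Multiplicative.ofAdd (n : ℤ)), by
  rw [mem_pb]
  show χ (σ (a₀.1⁻¹)) = Multiplicative.ofAdd (((n : ℤ) : ZMod n))
  rw [map_inv, MonoidHom.mem_ker.mp a₀.2]
  simp⟩

lemma tw_mem_center (hc : σ.ker ≤ center Γ) (y : Tw σ n χ) (hy : σ y.1.1 = 1) :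
    y ∈ center (Tw σ n χ) := by
  rw [mem_center_iff]
  intro x
  apply Subtype.ext
  exact Prod.ext (mem_center_iff.mp (hc hy) x.1.1) (mul_comm _ _)

/-- The cyclic central subgroup generated by `(a₀⁻¹, n)`. -/
def twN : Subgroup (Tw σ n χ) := zpowers (twElt σ n χ a₀)

lemma twN_le_center (hc : σ.ker ≤ center Γ) : twN σ n χ a₀ ≤ center (Tw σ n χ) := by
  unfold twN
  rw [zpowers_le]
  apply tw_mem_center σ n χ hc
  show σ (a₀.1⁻¹) = 1
  rw [map_inv, MonoidHom.mem_ker.mp a₀.2, inv_one]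

/-- The embedding `a ↦ (a, 0)` of the kernel. -/
def twIota : σ.ker →* Tw σ n χ where
  toFun a := ⟨(a.1, 1), by
    rw [mem_pb]
    show χ (σ a.1) = redZ n 1
    rw [MonoidHom.mem_ker.mp a.2, map_one, map_one]⟩
  map_one' := rfl
  map_mul' a b := by
    apply Subtype.ext
    simp

lemma twN_spec (hn : 0 < n) (y : Tw σ n χ) (hy : y ∈ twN σ n χ a₀) (k : ℤ)
    (hk : y.1.2 = Multiplicative.ofAdd ((n : ℤ) * k)) : y.1.1 = (a₀.1⁻¹) ^ k := by
  obtain ⟨l, rfl⟩ := mem_zpowers_iff.mp hy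
  have h2 : pbSnd (χ.comp σ) (redZ n) (twElt σ n χ a₀ ^ l) = Multiplicative.ofAdd (l * (n : ℤ)) := by
    rw [map_zpow]
    show (Multiplicative.ofAdd (n : ℤ)) ^ l = _
    rw [← ofAdd_zsmul]
    simp
  have h3 : l * (n : ℤ) = (n : ℤ) * k := by
    have : Multiplicative.ofAdd (l * (n : ℤ)) = Multiplicative.ofAdd ((n : ℤ) * k) := h2.symm.trans hk
    exact Multiplicative.ofAdd.injective this
  have h4 : l = k := by
    have hn' : (n : ℤ) ≠ 0 := by exact_mod_cast hn.ne'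
    rw [mul_comm] at h3
    exact mul_left_cancel₀ hn' h3
  have h1 : pbFst (χ.comp σ) (redZ n) (twElt σ n χ a₀ ^ l) = (a₀.1⁻¹) ^ l := by
    rw [map_zpow]
    rfl
  rw [← h4]
  exact h1

theorem exists_twist (hσ : IsStemExtension σ) (hn : 0 < n) :
    ∃ (Γ' : Type u) (_ : Group Γ') (σ' : Γ' →* Q), IsStemExtension σ' ∧
      Nonempty (σ'.ker ≃* σ.ker) ∧
      ∀ e : Γ →* Γ', σ'.comp e = σ → ∀ t : Γ, χ (σ t) = Multiplicative.ofAdd 1 →
        t ^ n ∈ commutator Γ → ∃ (a : σ.ker) (k : ℤ), (k : ZMod n) = 1 ∧ a ^ n * a₀ ^ k = 1 := by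
  have hN : (twN σ n χ a₀).Normal := normal_of_le_center _ (twN_le_center σ n χ a₀ hσ.2.1)
  set p₁ := pbFst (χ.comp σ) (redZ n) with hp₁def
  set p₂ := pbSnd (χ.comp σ) (redZ n) with hp₂def
  have hp₁ : Function.Surjective p₁ := pbFst_surjective _ _ (redZ_surjective n)
  have hNk : ∀ x ∈ twN σ n χ a₀, (σ.comp p₁) x = 1 := by
    intro x hx
    obtain ⟨l, rfl⟩ := mem_zpowers_iff.mp hx
    rw [map_zpow]
    have : (σ.comp p₁) (twElt σ n χ a₀) = 1 := by
      show σ (a₀.1⁻¹) = 1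
      rw [map_inv, MonoidHom.mem_ker.mp a₀.2, inv_one]
    rw [this, one_zpow]
  let σ' : Tw σ n χ ⧸ twN σ n χ a₀ →* Q := QuotientGroup.lift (twN σ n χ a₀) (σ.comp p₁) hNk
  have hσ'mk : ∀ y : Tw σ n χ, σ' (QuotientGroup.mk y) = σ (p₁ y) := fun y => rfl
  have F1 : ∀ y ∈ commutator (Tw σ n χ), p₂ y = 1 := fun y hy =>
    Abelianization.commutator_subset_ker p₂ hy
  have F2 : ∀ c ∈ commutator Γ, ∃ y ∈ commutator (Tw σ n χ), p₁ y = c ∧ p₂ y = 1 := by
    intro c hc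
    obtain ⟨y, hy, hyc⟩ := exists_mem_commutator_of_surjective p₁ hp₁ hc
    exact ⟨y, hy, hyc, F1 y hy⟩
  have F3 : ∀ y : Tw σ n χ, σ (p₁ y) = 1 → ∃ a : σ.ker,
      (QuotientGroup.mk y : Tw σ n χ ⧸ twN σ n χ a₀) = QuotientGroup.mk (twIota σ n χ a) := by
    intro y hy
    have h1 : redZ n (p₂ y) = 1 := by
      rw [← pb_comm]
      show χ (σ (p₁ y)) = 1
      rw [hy, map_one]
    have h2 : ((Multiplicative.toAdd (p₂ y) : ℤ) : ZMod n) = 0 := h1
    rw [ZMod.intCast_zmod_eq_zero_iff_dvd] at h2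
    obtain ⟨l, hl⟩ := h2
    refine ⟨⟨p₁ y, hy⟩ * a₀ ^ l, ?_⟩
    rw [QuotientGroup.eq]
    refine mem_zpowers_iff.mpr ⟨-l, ?_⟩
    apply pb_ext
    · rw [map_zpow, map_mul, map_inv]
      show (a₀.1⁻¹) ^ (-l) = (p₁ y)⁻¹ * (p₁ y * (a₀ ^ l : σ.ker).1)
      simp
    · rw [map_zpow, map_mul, map_inv]
      show (Multiplicative.ofAdd (n : ℤ)) ^ (-l) = (p₂ y)⁻¹ * 1
      rw [mul_one, ← ofAdd_zsmul, ← ofAdd_toAdd (p₂ y), hl, ← ofAdd_neg]
      congr 1
      simp [mul_comm]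
  have F4 : ∀ a : σ.ker,
      (QuotientGroup.mk (twIota σ n χ a) : Tw σ n χ ⧸ twN σ n χ a₀) = 1 → a = 1 := by
    intro a ha
    rw [QuotientGroup.eq_one_iff] at ha
    have := twN_spec σ n χ a₀ hn _ ha 0 (by simp [twIota])
    apply Subtype.ext
    simpa [twIota] using this
  have hstem : IsStemExtension σ' := by
    refine ⟨?_, ?_, ?_⟩
    · intro q
      obtain ⟨g, rfl⟩ := hσ.1 q
      obtain ⟨y, rfl⟩ := hp₁ g
      exact ⟨QuotientGroup.mk y, rfl⟩
    · intro w hw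
      obtain ⟨y, rfl⟩ := QuotientGroup.mk_surjective w
      have hy : σ (p₁ y) = 1 := hw
      have hyc := tw_mem_center σ n χ hσ.2.1 y hy
      rw [mem_center_iff]
      intro z
      obtain ⟨x, rfl⟩ := QuotientGroup.mk_surjective z
      rw [← QuotientGroup.mk_mul, ← QuotientGroup.mk_mul, mem_center_iff.mp hyc x]
    · intro w hw
      obtain ⟨y, rfl⟩ := QuotientGroup.mk_surjective w
      have hy : σ (p₁ y) = 1 := hw
      obtain ⟨a, ha⟩ := F3 y hy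
      obtain ⟨c, hc, hc1, hc2⟩ := F2 a.1 (hσ.2.2 a.2)
      have : c = twIota σ n χ a := pb_ext _ _ hc1 hc2
      rw [ha, ← this]
      exact map_mem_commutator (QuotientGroup.mk' (twN σ n χ a₀)) hc
  let ι : σ.ker →* σ'.ker :=
    ((QuotientGroup.mk' (twN σ n χ a₀)).comp (twIota σ n χ)).codRestrict σ'.ker (fun a => a.2)
  have hι : Function.Bijective ι := by
    constructor
    · rw [injective_iff_map_eq_one]
      intro a ha
      exact F4 a (congrArg Subtype.val ha)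
    · rintro ⟨w, hw⟩
      obtain ⟨y, rfl⟩ := QuotientGroup.mk_surjective w
      obtain ⟨a, ha⟩ := F3 y hw
      exact ⟨a, Subtype.ext ha.symm⟩
  refine ⟨Tw σ n χ ⧸ twN σ n χ a₀, inferInstance, σ', hstem,
    ⟨(MulEquiv.ofBijective ι hι).symm⟩, ?_⟩
  intro e he t ht htn
  have he' : ∀ x, σ' (e x) = σ x := fun x => DFunLike.congr_fun he x
  obtain ⟨y, hy⟩ := QuotientGroup.mk_surjective (e t)
  have hy1 : σ (p₁ y) = σ t := by rw [← hσ'mk, hy, he']
  have hak : t⁻¹ * p₁ y ∈ σ.ker := by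
    rw [MonoidHom.mem_ker, map_mul, map_inv, hy1, inv_mul_cancel]
  have hk : ((Multiplicative.toAdd (p₂ y) : ℤ) : ZMod n) = 1 := by
    have h1 : redZ n (p₂ y) = Multiplicative.ofAdd 1 := by
      rw [← pb_comm]
      show χ (σ (p₁ y)) = _
      rw [hy1, ht]
    exact h1
  refine ⟨⟨t⁻¹ * p₁ y, hak⟩, Multiplicative.toAdd (p₂ y), hk, ?_⟩
  obtain ⟨c, hc, hc1, hc2⟩ := F2 _ htn
  have hagree := eq_on_commutator_of_central (e.comp p₁) (QuotientGroup.mk' (twN σ n χ a₀)) (by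
    intro x
    apply hstem.2.1
    rw [MonoidHom.mem_ker, map_mul, map_inv]
    show (σ' (QuotientGroup.mk x))⁻¹ * σ' (e (p₁ x)) = 1
    rw [he', hσ'mk, inv_mul_cancel]) c hc
  have h1 : (QuotientGroup.mk (y ^ n) : Tw σ n χ ⧸ twN σ n χ a₀) = QuotientGroup.mk c := by
    have h2 : e (p₁ c) = QuotientGroup.mk c := hagree
    rw [QuotientGroup.mk_pow, hy, ← map_pow, ← hc1, h2]
  rw [QuotientGroup.eq] at h1
  have hcen : Commute t (t⁻¹ * p₁ y) := by
    have := mem_center_iff.mp (hσ.2.1 hak) t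
    exact this
  have h3 := twN_spec σ n χ a₀ hn _ (inv_mem h1) (Multiplicative.toAdd (p₂ y)) (by
    show p₂ ((y ^ n)⁻¹ * c)⁻¹ = _
    rw [map_inv, map_mul, map_inv, hc2, map_pow, mul_one, inv_inv, ← ofAdd_toAdd (p₂ y),
      ← ofAdd_nsmul]
    simp)
  have h4 : p₁ ((y ^ n)⁻¹ * c)⁻¹ = (t⁻¹ * p₁ y) ^ n := by
    rw [map_inv, map_mul, map_inv, hc1, map_pow, mul_inv_rev, inv_inv]
    have : p₁ y = t * (t⁻¹ * p₁ y) := by group
    conv_lhs => rw [this, hcen.mul_pow]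
    group
  apply Subtype.ext
  show (t⁻¹ * p₁ y) ^ n * (a₀ ^ (Multiplicative.toAdd (p₂ y)) : σ.ker).1 = 1
  have h5 : (t⁻¹ * p₁ y) ^ n = (a₀.1⁻¹) ^ (Multiplicative.toAdd (p₂ y)) := h4.symm.trans h3
  rw [h5]
  simp

end Twist

/-- A finite abelian group of order divisible by `p` has a cyclic direct factor of order divisible
by `p`. -/
lemma exists_cyclic_factor {B : Type*} [CommGroup B] [Finite B] (p : ℕ) (hp : p.Prime)
    (hpB : p ∣ Nat.card B) : ∃ (n : ℕ) (χ : B →* Multiplicative (ZMod n)) (u : B), 0 < n ∧ p ∣ n ∧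
      χ u = Multiplicative.ofAdd 1 ∧ u ^ n = 1 := by
  classical
  obtain ⟨ι, _, n, hn, ⟨E⟩⟩ := CommGroup.equiv_prod_multiplicative_zmod_of_finite B
  have hcard : Nat.card B = ∏ i, n i := by
    rw [Nat.card_congr E.toEquiv, Nat.card_pi]
    apply Finset.prod_congr rfl
    intro i _
    rw [Nat.card_congr Multiplicative.toAdd, Nat.card_zmod]
  rw [hcard, hp.prime.dvd_finsetProd_iff] at hpB
  obtain ⟨i, -, hi⟩ := hpB
  refine ⟨n i, (Pi.evalMonoidHom _ i).comp E.toMonoidHom,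
    E.symm (Pi.mulSingle i (Multiplicative.ofAdd 1)), by have := hn i; omega, hi, ?_, ?_⟩
  · show (E (E.symm (Pi.mulSingle i (Multiplicative.ofAdd 1)))) i = _
    rw [MulEquiv.apply_symm_apply, Pi.mulSingle_eq_same]
  · rw [← map_pow, ← Pi.mulSingle_pow, ← ofAdd_nsmul]
    simp

/-- In a finite group of order divisible by `p`, not every element is a `p`-th power. -/
lemma exists_not_pow {C : Type*} [Group C] [Finite C] (p : ℕ) (hp : p.Prime)
    (hpC : p ∣ Nat.card C) : ∃ a₀ : C, ∀ b : C, b ^ p ≠ a₀ := by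
  by_contra hcon
  push Not at hcon
  have hs : Function.Surjective (fun b : C => b ^ p) := hcon
  have hi := Finite.injective_iff_surjective.mpr hs
  have := Fact.mk hp
  obtain ⟨x, hx⟩ := exists_prime_orderOf_dvd_card' p hpC
  have h1 : x ^ p = (1 : C) ^ p := by rw [one_pow, ← hx, pow_orderOf_eq_one]
  have h2 : x = 1 := hi h1
  rw [h2, orderOf_one] at hx
  exact hp.one_lt.ne hx

/-- If `#Qᵃᵇ` and `#M(Q)` are not coprime there are Schur covers not isomorphic over `Q`. -/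
theorem exists_covers_not_iso {Q : Type u} [Group Q] [Finite Q] {Γ : Type u} [Group Γ] [Finite Γ]
    (σ : Γ →* Q) (hσ : IsStemExtension σ)
    (hncop : ¬ Nat.Coprime (Nat.card (Abelianization Q)) (Nat.card σ.ker)) :
    ∃ (Γ' : Type u) (_ : Group Γ') (_ : Finite Γ') (σ' : Γ' →* Q), IsStemExtension σ' ∧
      Nonempty (σ'.ker ≃* σ.ker) ∧ ¬ ∃ e : Γ ≃* Γ', σ'.comp e.toMonoidHom = σ := by
  obtain ⟨p, hp, hp1, hp2⟩ := Nat.Prime.not_coprime_iff_dvd.mp hncop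
  obtain ⟨n, χ₀, u₀, hn, hpn, hχu, hun⟩ := exists_cyclic_factor p hp hp1
  obtain ⟨a₀, ha₀⟩ := exists_not_pow p hp hp2
  obtain ⟨u, rfl⟩ := QuotientGroup.mk_surjective u₀
  obtain ⟨t, rfl⟩ := hσ.1 u
  obtain ⟨Γ', _, σ', hstem, ⟨E⟩, hno⟩ := exists_twist σ n (χ₀.comp Abelianization.of) a₀ hσ hn
  have hfin : Finite Γ' := by
    have : Finite σ'.ker := Finite.of_equiv _ E.symm.toEquiv
    exact finite_of_ker_of_finite σ'
  refine ⟨Γ', inferInstance, hfin, σ', hstem, ⟨E⟩, ?_⟩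
  rintro ⟨e, he⟩
  have htn : t ^ n ∈ commutator Γ := by
    have h1 : σ t ^ n ∈ commutator Q := by
      rw [← Abelianization.ker_of, MonoidHom.mem_ker, map_pow]
      exact hun
    obtain ⟨c, hc, hcx⟩ := exists_mem_commutator_of_surjective σ hσ.1 h1
    have h2 : c⁻¹ * t ^ n ∈ σ.ker := by
      rw [MonoidHom.mem_ker, map_mul, map_inv, hcx, map_pow, inv_mul_cancel]
    have h3 := mul_mem hc (hσ.2.2 h2)
    rwa [mul_inv_cancel_left] at h3
  obtain ⟨a, k, hk, hak⟩ := hno e.toMonoidHom he t hχu htn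
  let _ : CommGroup σ.ker :=
    { (inferInstance : Group σ.ker) with
      mul_comm := fun a c => Subtype.ext (by
        have := mem_center_iff.mp (hσ.2.1 a.2) c
        simpa using this.symm) }
  have hk' : (n : ℤ) ∣ k - 1 := by
    rw [← ZMod.intCast_zmod_eq_zero_iff_dvd]
    push_cast
    rw [hk, sub_self]
  obtain ⟨s, hs⟩ := hk'
  obtain ⟨n', rfl⟩ := hpn
  apply ha₀ (((a * a₀ ^ s)⁻¹) ^ n')
  have hk2 : k = 1 + ((p * n' : ℕ) : ℤ) * s := by omega
  rw [hk2, zpow_add, zpow_one, zpow_mul, zpow_natCast] at hak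
  rw [← pow_mul, mul_comm n' p, inv_pow, mul_pow, inv_eq_iff_mul_eq_one, ← hak]
  rw [← zpow_natCast (a₀ ^ s), ← zpow_mul, ← zpow_natCast a₀, ← zpow_mul, mul_comm s]
  rw [mul_assoc]
  congr 1
  rw [mul_comm]

end Cfsg.Agent.Lib.Helper41
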