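import Cfsg.Agent.Lib.Helper41.SchurPullback

set_option autoImplicit false

namespace Cfsg.Agent.Lib.Helper41

open Subgroup
open scoped commutatorElement

universe u v w

/-- A homomorphism over `Q` into a stem extension is surjective. -/
lemma surjective_of_stem_over {Γ₁ Γ₂ Q : Type*} [Group Γ₁] [Group Γ₂] [Group Q] (σ₁ : Γ₁ →* Q)
    (σ₂ : Γ₂ →* Q) (h₁ : Function.Surjective σ₁) (h₂ : IsStemExtension σ₂) (f : Γ₁ →* Γ₂)
    (hf : σ₂.comp f = σ₁) : Function.Surjective f := by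
  have hf' : ∀ e, σ₂ (f e) = σ₁ e := fun e => by rw [← hf]; rfl
  have hsup : f.range ⊔ σ₂.ker = ⊤ := by
    rw [eq_top_iff]
    intro p _
    obtain ⟨e, he⟩ := h₁ (σ₂ p)
    have : p = f e * ((f e)⁻¹ * p) := by group
    rw [this]
    refine Subgroup.mul_mem_sup ⟨e, rfl⟩ ?_
    rw [MonoidHom.mem_ker, map_mul, map_inv, hf', he, inv_mul_cancel]
  have h1 : σ₂.ker ≤ f.range := by
    intro k hk
    have := commutator_le_of_sup_central f.range σ₂.ker h₂.2.1 hsup (h₂.2.2 hk)
    have hle : ⁅f.range, f.range⁆ ≤ f.range := by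
      rw [Subgroup.commutator_le]
      intro a ha b hb
      rw [commutatorElement_def]
      exact mul_mem (mul_mem (mul_mem ha hb) (inv_mem ha)) (inv_mem hb)
    exact hle this
  rw [sup_eq_left.mpr h1] at hsup
  exact MonoidHom.range_eq_top.mp hsup

/-- A central extension with a retraction onto the kernel splits. -/
lemma exists_section_of_retract {P Γ : Type*} [Group P] [Group Γ] (p : P →* Γ)
    (hp : Function.Surjective p) (hc : p.ker ≤ center P) (θ : P →* p.ker)
    (hθ : ∀ c : p.ker, θ c.1 = c) : ∃ s : Γ →* P, ∀ x, p (s x) = x := by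
  let ρ' : P →* P := MonoidHom.mk' (fun y => y * ((θ y).1)⁻¹) (by
    intro a b
    have hc' := mem_center_iff.mp (inv_mem (hc (θ a).2)) (b * ((θ b).1)⁻¹)
    simp only [map_mul, Subgroup.coe_mul, mul_inv_rev]
    calc a * b * (((θ b).1)⁻¹ * ((θ a).1)⁻¹)
        = a * ((b * ((θ b).1)⁻¹) * ((θ a).1)⁻¹) := by group
      _ = _ := by rw [hc']; group)
  have hker : p.ker ≤ ρ'.ker := by
    intro y hy
    show y * ((θ y).1)⁻¹ = 1
    rw [hθ ⟨y, hy⟩]
    simp
  refine ⟨p.liftOfSurjective hp ⟨ρ', hker⟩, ?_⟩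
  intro x
  obtain ⟨y, rfl⟩ := hp x
  rw [MonoidHom.liftOfRightInverse_comp_apply]
  show p (y * ((θ y).1)⁻¹) = p y
  rw [map_mul, map_inv, MonoidHom.mem_ker.mp (θ y).2]
  simp

/-- A subgroup of an abelian group of order coprime to the exponent of the quotient is a retract. -/
lemma retract_of_coprime {B C : Type*} [CommGroup B] [CommGroup C] [Finite C] (j : C →* B)
    (hj : Function.Injective j) (m : ℕ) (hm : Nat.Coprime m (Nat.card C))
    (hB : ∀ b : B, b ^ m ∈ j.range) : ∃ θ : B →* C, ∀ c, θ (j c) = c := by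
  let E : C ≃* C := MulEquiv.ofBijective (powMonoidHom m : C →* C) (powCoprime hm.symm).bijective
  let J : C ≃* j.range := MonoidHom.ofInjective hj
  let θ₀ : B →* j.range := (powMonoidHom m : B →* B).codRestrict j.range hB
  refine ⟨(E.symm.toMonoidHom.comp J.symm.toMonoidHom).comp θ₀, ?_⟩
  intro c
  show E.symm (J.symm (θ₀ (j c))) = c
  have h1 : θ₀ (j c) = J (c ^ m) := by
    apply Subtype.ext
    show (j c) ^ m = j (c ^ m)
    rw [map_pow]
  rw [h1, MulEquiv.symm_apply_apply, MulEquiv.symm_apply_eq]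
  rfl

/-- In the pullback of a Schur cover with a central extension, the kernel of the first projection
meets the commutator subgroup trivially. -/
lemma pb_cover_inf_eq_bot {Q : Type u} [Group Q] {A : Type v} [CommGroup A]
    (hA : HasSchurMultiplier Q A) {Γ : Type*} [Group Γ] [Finite Γ] (σ : Γ →* Q)
    (hσ : IsStemExtension σ) (hk : Nonempty (σ.ker ≃* A)) {Δ : Type*} [Group Δ] (τ : Δ →* Q)
    (hτ : Function.Surjective τ) (hτc : τ.ker ≤ center Δ) :
    ∀ y ∈ commutator (pb σ τ), pbFst σ τ y = 1 → y = 1 := by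
  have hp₁ : Function.Surjective (pbFst σ τ) := pbFst_surjective σ τ hτ
  let κ : pb σ τ →* Q := σ.comp (pbFst σ τ)
  have hκ : Function.Surjective κ := hσ.1.comp hp₁
  have hc : κ.ker ≤ center (pb σ τ) := by
    intro y hy
    have h1 : y.1.1 ∈ σ.ker := hy
    have h2 : y.1.2 ∈ τ.ker := by
      have := y.2
      rw [mem_pb, MonoidHom.mem_ker.mp h1] at this
      exact this.symm
    rw [mem_center_iff]
    intro x
    apply Subtype.ext
    exact Prod.ext (mem_center_iff.mp (hσ.2.1 h1) x.1.1) (mem_center_iff.mp (hτc h2) x.1.2)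
  obtain ⟨φ, hφ⟩ := hsm_surj_of_central hA κ hκ hc
  have hAf := hsm_finite hA
  have hWf : Finite (κ.ker ⊓ commutator (pb σ τ) : Subgroup (pb σ τ)) := Finite.of_surjective φ hφ
  obtain ⟨e⟩ := hk
  let r : (κ.ker ⊓ commutator (pb σ τ) : Subgroup (pb σ τ)) →* σ.ker :=
    ((pbFst σ τ).comp (Subgroup.subtype _)).codRestrict σ.ker (fun w => w.2.1)
  have hr : Function.Surjective r := by
    intro z
    obtain ⟨w, hw, hwz⟩ := exists_mem_commutator_of_surjective (pbFst σ τ) hp₁ (hσ.2.2 z.2)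
    refine ⟨⟨w, ?_, hw⟩, Subtype.ext hwz⟩
    show σ (pbFst σ τ w) = 1
    rw [hwz]
    exact z.2
  have hcard : Nat.card (κ.ker ⊓ commutator (pb σ τ) : Subgroup (pb σ τ)) ≤ Nat.card σ.ker := by
    rw [Nat.card_congr e.toEquiv]
    exact Nat.card_le_card_of_surjective φ hφ
  have hrb := hr.bijective_of_nat_card_le hcard
  intro y hy hy1
  have hyk : y ∈ κ.ker := by
    show σ (pbFst σ τ y) = 1
    rw [hy1, map_one]
  have : (⟨y, hyk, hy⟩ : (κ.ker ⊓ commutator (pb σ τ) : Subgroup (pb σ τ))) = 1 := by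
    apply hrb.1
    apply Subtype.ext
    exact hy1
  exact congrArg Subtype.val this

lemma pow_card_abelianization_mem {Q : Type*} [Group Q] [Finite Q] (q : Q) :
    q ^ Nat.card (Abelianization Q) ∈ commutator Q := by
  rw [← Abelianization.ker_of, MonoidHom.mem_ker, map_pow]
  exact pow_card_eq_one'

lemma pow_card_abelianization_mem_of_stem {Γ Q : Type*} [Group Γ] [Group Q] [Finite Q]
    (σ : Γ →* Q) (hσ : IsStemExtension σ) (x : Γ) :
    x ^ Nat.card (Abelianization Q) ∈ commutator Γ := by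
  obtain ⟨c, hc, hcx⟩ := exists_mem_commutator_of_surjective σ hσ.1
    (pow_card_abelianization_mem (σ x))
  have h1 : c⁻¹ * x ^ Nat.card (Abelianization Q) ∈ σ.ker := by
    rw [MonoidHom.mem_ker, map_mul, map_inv, hcx, map_pow, inv_mul_cancel]
  have h2 := mul_mem hc (hσ.2.2 h1)
  rwa [mul_inv_cancel_left] at h2

lemma card_eq_of_surjective {Γ Q : Type*} [Group Γ] [Group Q] (σ : Γ →* Q)
    (hσ : Function.Surjective σ) : Nat.card Γ = Nat.card Q * Nat.card σ.ker := by
  rw [Subgroup.card_eq_card_quotient_mul_card_subgroup σ.ker,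
    Nat.card_congr (QuotientGroup.quotientKerEquivOfSurjective σ hσ).toEquiv]

/-- If `#Qᵃᵇ` and `#M(Q)` are coprime, Schur covers are unique over `Q`. -/
theorem cover_unique_of_coprime {Q : Type u} [Group Q] [Finite Q] {A : Type v} [CommGroup A]
    (hA : HasSchurMultiplier Q A) (hcop : Nat.Coprime (Nat.card (Abelianization Q)) (Nat.card A))
    {Γ₁ Γ₂ : Type*} [Group Γ₁] [Finite Γ₁] [Group Γ₂] [Finite Γ₂] (σ₁ : Γ₁ →* Q) (σ₂ : Γ₂ →* Q)
    (h₁ : IsStemExtension σ₁) (h₂ : IsStemExtension σ₂) (k₁ : Nonempty (σ₁.ker ≃* A))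
    (k₂ : Nonempty (σ₂.ker ≃* A)) : ∃ e : Γ₁ ≃* Γ₂, σ₂.comp e.toMonoidHom = σ₁ := by
  have hbot := pb_cover_inf_eq_bot hA σ₁ h₁ k₁ σ₂ h₂.1 h₂.2.1
  have hp₁ : Function.Surjective (pbFst σ₁ σ₂) := pbFst_surjective σ₁ σ₂ h₂.1
  have hc : (pbFst σ₁ σ₂).ker ≤ center (pb σ₁ σ₂) := ker_pbFst_le_center σ₁ σ₂ h₂.2.1
  let _ : CommGroup (pbFst σ₁ σ₂).ker :=
    { (inferInstance : Group (pbFst σ₁ σ₂).ker) with
      mul_comm := fun a c => Subtype.ext (by
        have := mem_center_iff.mp (hc a.2) c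
        simpa using this.symm) }
  obtain ⟨e₁⟩ := k₁
  obtain ⟨e₂⟩ := k₂
  have hcardC : Nat.card (pbFst σ₁ σ₂).ker = Nat.card A :=
    Nat.card_congr ((kerPbFstEquiv σ₁ σ₂).trans e₂).toEquiv
  let j : (pbFst σ₁ σ₂).ker →* Abelianization (pb σ₁ σ₂) :=
    Abelianization.of.comp (Subgroup.subtype _)
  have hj : Function.Injective j := by
    rw [injective_iff_map_eq_one]
    intro z hz
    have h1 : z.1 ∈ commutator (pb σ₁ σ₂) := by
      rw [← Abelianization.ker_of]
      exact hz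
    exact Subtype.ext (hbot _ h1 z.2)
  obtain ⟨θ, hθ⟩ := retract_of_coprime j hj (Nat.card (Abelianization Q))
    (by rw [hcardC]; exact hcop) (by
      intro b
      obtain ⟨y, rfl⟩ := QuotientGroup.mk_surjective b
      have h1 := pow_card_abelianization_mem_of_stem σ₁ h₁ (pbFst σ₁ σ₂ y)
      obtain ⟨c, hc, hcy⟩ := exists_mem_commutator_of_surjective (pbFst σ₁ σ₂) hp₁ h1
      refine ⟨⟨c⁻¹ * y ^ Nat.card (Abelianization Q), ?_⟩, ?_⟩
      · rw [MonoidHom.mem_ker, map_mul, map_inv, hcy, map_pow, inv_mul_cancel]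
      · show Abelianization.of (c⁻¹ * y ^ Nat.card (Abelianization Q)) =
          (Abelianization.of y) ^ Nat.card (Abelianization Q)
        have hc1 : Abelianization.of c = 1 := by
          rw [← MonoidHom.mem_ker, Abelianization.ker_of]; exact hc
        rw [map_mul, map_inv, hc1, map_pow]
        simp)
  obtain ⟨s, hs⟩ := exists_section_of_retract (pbFst σ₁ σ₂) hp₁ hc (θ.comp Abelianization.of)
    (fun c => hθ c)
  let f : Γ₁ →* Γ₂ := (pbSnd σ₁ σ₂).comp s
  have hf : σ₂.comp f = σ₁ := by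
    refine MonoidHom.ext fun x => ?_
    show σ₂ (pbSnd σ₁ σ₂ (s x)) = σ₁ x
    rw [← pb_comm, hs]
  have hfs := surjective_of_stem_over σ₁ σ₂ h₁.1 h₂ f hf
  have hcard : Nat.card Γ₁ ≤ Nat.card Γ₂ := by
    rw [card_eq_of_surjective σ₁ h₁.1, card_eq_of_surjective σ₂ h₂.1,
      Nat.card_congr e₁.toEquiv, Nat.card_congr e₂.toEquiv]
  have hfb := hfs.bijective_of_nat_card_le hcard
  exact ⟨MulEquiv.ofBijective f hfb, hf⟩

end Cfsg.Agent.Lib.Helper41
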